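import Mathlib
import Cfsg.Agent.H64.JzDefs
import Cfsg.Agent.S2950
import Cfsg.Agent.H39.JzLex

/-!
# JY-NOTIN (S2953, piece Y4): for `T < S` some `x ∈ N_S(T)` lies outside `L`

`Base S M T K L`, `T ≠ S` give `x ∈ S` normalizing `T` with `x ∉ L` (`T` is a Sylow 2-subgroup of
`L` by S2950, and `N_S(T) > T`).
-/

set_option autoImplicit false
open Cfsg

namespace Cfsg.Agent.H7.JyNotin

universe u

variable {G : Type u} [Group G]

/-- a 2-subgroup of `L` is not larger than a Sylow 2-subgroup of `L` -/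
theorem card_le_sylIn [Finite G] {T L R : Subgroup G} (hsyl : IsSylowTwoIn T L)
    (hRL : R ≤ L) (hR : IsPGroup 2 ↥R) : Nat.card R ≤ Nat.card T := by
  have : Fact (Nat.Prime 2) := ⟨Nat.prime_two⟩
  obtain ⟨hTL, hT2, hodd⟩ := hsyl
  obtain ⟨n, hn⟩ := hR.exists_card_eq
  have h1 : Nat.card R ∣ Nat.card L := Subgroup.card_dvd_of_le hRL
  have h2 : Nat.card T * T.relIndex L = Nat.card L := by
    have h := Subgroup.card_mul_index (T.subgroupOf L)
    rw [Nat.card_congr (Subgroup.subgroupOfEquivOfLe hTL).toEquiv] at h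
    exact h
  rw [← h2, hn] at h1
  have hcop : Nat.Coprime (2 ^ n) (T.relIndex L) := by
    apply Nat.Coprime.pow_left
    rw [Nat.Prime.coprime_iff_not_dvd Nat.prime_two]
    obtain ⟨k, hk⟩ := hodd
    omega
  have h3 : 2 ^ n ∣ Nat.card T := hcop.dvd_of_dvd_mul_right h1
  rw [hn]
  exact Nat.le_of_dvd Nat.card_pos h3

/-- `T` is a Sylow 2-subgroup of `L` in the situation `Base S M T K L` (S2950 + uniqueness). -/
theorem sylIn_of_base [Finite G] (S : Sylow 2 G) (M T K L : Subgroup G)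
    (hB : Cfsg.Agent.H64.Jz.Base S M T K L) : IsSylowTwoIn T L := by
  obtain ⟨⟨hL, hN, hZ⟩, hO, hM, hMJ, hT, hTS, hK, hLmax, hKL⟩ := hB
  obtain ⟨L0, hL0max, hKL0, huniq0, -, hsyl0⟩ :=
    Cfsg.Agent.S2950.result hL hN hZ hO S M hM hMJ T hT K hK
  have hLL0 : L = L0 := huniq0 L hLmax hKL
  rw [hLL0]; exact hsyl0

/-- a 2-element `x` of `L` such that `⟨T, x⟩` is a 2-group lies in `T` -/
theorem mem_of_sylIn [Finite G] {T L R : Subgroup G} (hsyl : IsSylowTwoIn T L)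
    (hR : IsPGroup 2 ↥R) (hTR : T ≤ R) {x : G} (hxR : x ∈ R) (hxL : x ∈ L) : x ∈ T := by
  have hR2 : IsPGroup 2 ↥(T ⊔ Subgroup.zpowers x) :=
    hR.to_le (sup_le hTR (Subgroup.zpowers_le.mpr hxR))
  have hRL : T ⊔ Subgroup.zpowers x ≤ L := sup_le hsyl.1 (Subgroup.zpowers_le.mpr hxL)
  have hEq : T = T ⊔ Subgroup.zpowers x :=
    Subgroup.eq_of_le_of_card_ge le_sup_left (card_le_sylIn hsyl hRL hR2)
  rw [hEq]
  exact Subgroup.mem_sup_right (Subgroup.mem_zpowers x)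

/-- JY-NOTIN: `Base S M T K L`, `T ≠ S` ⟹ some `x ∈ S` normalizes `T` and is not in `L`. -/
theorem notin [Finite G] (S : Sylow 2 G) (M T K L : Subgroup G)
    (hB : Cfsg.Agent.H64.Jz.Base S M T K L) (hne : T ≠ (S : Subgroup G)) :
    ∃ x : G, x ∈ (S : Subgroup G) ∧ x ∈ Subgroup.normalizer (T : Set G) ∧ x ∉ L := by
  have hsyl : IsSylowTwoIn T L := sylIn_of_base S M T K L hB
  obtain ⟨-, -, -, -, -, hTS, -, -, -⟩ := hB
  have hS2 : IsPGroup 2 ↥(S : Subgroup G) := S.isPGroup'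
  obtain ⟨x, hxS, hxNT, hxT⟩ := Cfsg.Agent.H39.Jz.exists_normalizer_not_mem hS2 hTS hne
  exact ⟨x, hxS, hxNT, fun hxL => hxT (mem_of_sylIn hsyl hS2 hTS hxS hxL)⟩

/-- the same with `S ⊓ L = T` -/
theorem inf_eq [Finite G] (S : Sylow 2 G) (M T K L : Subgroup G)
    (hB : Cfsg.Agent.H64.Jz.Base S M T K L) : (S : Subgroup G) ⊓ L = T := by
  have hsyl : IsSylowTwoIn T L := sylIn_of_base S M T K L hB
  obtain ⟨-, -, -, -, -, hTS, -, -, -⟩ := hB
  have hS2 : IsPGroup 2 ↥(S : Subgroup G) := S.isPGroup'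
  apply le_antisymm
  · intro x hx
    exact mem_of_sylIn hsyl hS2 hTS (Subgroup.mem_inf.mp hx).1 (Subgroup.mem_inf.mp hx).2
  · exact le_inf hTS hsyl.1

end Cfsg.Agent.H7.JyNotin

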