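import Mathlib
import Cfsg.Agent.H47.BG1216Defs2
import Cfsg.Agent.H1.Hall

/-!
# BG1216 piece HALLA (for S1425)

If `M* = M*_α · T` with `T ≤ M*`, every `α(M*)'`-subgroup of `M*` is `M*`-conjugate into `T`
(Hall's theorems in the solvable group `M*`).
-/

set_option autoImplicit false

namespace Cfsg.Agent.H7.BG1216

open Cfsg Subgroup Cfsg.Agent.H58.BG10 Cfsg.Agent.H57.BG12 Cfsg.Agent.H76.BG12
  Cfsg.Agent.H47.BG12
open scoped Pointwise

universe u

/-- In a finite solvable group `M = A T` with `A` a normal Hall subgroup, every subgroup of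
order prime to `|A|` is conjugate into `T`. -/
theorem hall_conj_into {M : Type u} [Group M] [Finite M] [Group.IsSolvable M]
    (A T Y : Subgroup M) [A.Normal] (hcop : (Nat.card A).Coprime A.index)
    (hAT : ∀ m : M, ∃ a ∈ A, ∃ n ∈ T, m = a * n)
    (hY : (Nat.card Y).Coprime (Nat.card A)) : ∃ g : M, MulAut.conj g • Y ≤ T := by
  have hcard : Nat.card M = A.index * Nat.card A := by
    rw [mul_comm]
    exact (Subgroup.card_mul_index A).symm
  have hsup : T ⊔ A = ⊤ := by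
    rw [eq_top_iff]
    intro m _
    obtain ⟨a, ha, n, hn, rfl⟩ := hAT m
    exact Subgroup.mul_mem _ (Subgroup.mem_sup_right ha) (Subgroup.mem_sup_left hn)
  have hrel : A.relIndex T = A.index := by
    rw [← Subgroup.relIndex_sup_right (H := T) (K := A), hsup, Subgroup.relIndex_top_right]
  have hcardT : Nat.card ↥T = A.index * Nat.card (A.subgroupOf T) := by
    rw [mul_comm, ← hrel]
    exact (Subgroup.card_mul_index (A.subgroupOf T)).symm
  have hdvd : Nat.card (A.subgroupOf T) ∣ Nat.card A := by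
    rw [← Subgroup.inf_subgroupOf_right,
      Nat.card_congr (Subgroup.subgroupOfEquivOfLe (inf_le_right : A ⊓ T ≤ T)).toEquiv]
    exact Subgroup.card_dvd_of_le inf_le_left
  have hcop' : (A.index).Coprime (Nat.card (A.subgroupOf T)) :=
    Nat.Coprime.coprime_dvd_right hdvd hcop.symm
  obtain ⟨C, hC⟩ := Cfsg.Agent.H1.hall_exists (G := ↥T) A.index (Nat.card (A.subgroupOf T))
    hcardT hcop'
  have hC' : Nat.card (C.map T.subtype) = A.index := by
    rw [Subgroup.card_map_of_injective T.subtype_injective, hC]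
  obtain ⟨H, hH, hYH⟩ := Cfsg.Agent.H1.hall_le (G := M) A.index (Nat.card A) hcard hcop.symm
    Y hY
  obtain ⟨g, hg⟩ := Cfsg.Agent.H1.hall_conj (G := M) A.index (Nat.card A) hcard hcop.symm
    H (C.map T.subtype) hH hC'
  refine ⟨g, ?_⟩
  rintro x ⟨y, hy, rfl⟩
  have h2 : MulAut.conj g • y ∈ MulAut.conj g • H := ⟨y, hYH hy, rfl⟩
  rw [hg] at h2
  exact Subgroup.map_subtype_le _ h2

variable {G : Type u} [Group G] [Finite G]

theorem hallAlpha (hG : IsMinSimpleOddOrder G) (h05 : St1405 G) : StHallAlpha G := by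
  intro Ms hMs T hT hfac Y hY hYp
  obtain ⟨⟨_, hpi, hidx⟩, _⟩ := h05 Ms hMs
  have : Group.IsSolvable ↥Ms := hG.2.2.2 Ms hMs.1
  have hcardA : Nat.card (piCore (alpha Ms) ↥Ms) = Nat.card (alphaCore Ms) := by
    show _ = Nat.card ((piCore (alpha Ms) ↥Ms).map Ms.subtype)
    rw [Subgroup.card_map_of_injective Ms.subtype_injective]
  have hindex : (piCore (alpha Ms) ↥Ms).index = (alphaCore Ms).relIndex Ms := by
    show _ = (((piCore (alpha Ms) ↥Ms).map Ms.subtype).comap Ms.subtype).index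
    rw [Subgroup.comap_map_eq_self_of_injective Ms.subtype_injective]
  have hcop : (Nat.card (piCore (alpha Ms) ↥Ms)).Coprime (piCore (alpha Ms) ↥Ms).index := by
    rw [hcardA, hindex]
    exact Nat.Coprime.symm (Nat.coprime_of_dvd (fun p hp h1 h2 => hidx p hp (hpi p hp h2) h1))
  have hAT : ∀ m : ↥Ms, ∃ a ∈ piCore (alpha Ms) ↥Ms, ∃ n ∈ T.subgroupOf Ms, m = a * n := by
    intro m
    obtain ⟨a, ha, n, hn, hmn⟩ := hfac m m.2
    obtain ⟨a', ha', rfl⟩ := ha
    exact ⟨a', ha', ⟨n, hT hn⟩, Subgroup.mem_subgroupOf.mpr hn, Subtype.ext hmn⟩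
  have hYc : (Nat.card (Y.subgroupOf Ms)).Coprime (Nat.card (piCore (alpha Ms) ↥Ms)) := by
    rw [hcardA, Nat.card_congr (Subgroup.subgroupOfEquivOfLe hY).toEquiv]
    exact Nat.coprime_of_dvd (fun p hp h1 h2 => hYp p hp h1 (hpi p hp h2))
  obtain ⟨g, hg⟩ := hall_conj_into (piCore (alpha Ms) ↥Ms) (T.subgroupOf Ms)
    (Y.subgroupOf Ms) hcop hAT hYc
  refine ⟨(g : G), g.2, ?_⟩
  rintro x ⟨y, hy, rfl⟩
  have h1 : MulAut.conj g • (⟨y, hY hy⟩ : ↥Ms) ∈ MulAut.conj g • Y.subgroupOf Ms :=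
    ⟨⟨y, hY hy⟩, Subgroup.mem_subgroupOf.mpr hy, rfl⟩
  exact Subgroup.mem_subgroupOf.mp (hg h1)

example (hG : IsMinSimpleOddOrder G) (h05 : St1405 G) :
    Cfsg.Agent.H47.BG12.StHallAlpha G := hallAlpha hG h05

end Cfsg.Agent.H7.BG1216
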