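import Mathlib
import Cfsg.Agent.Lib.Helper30.BG12TDefs

/-!
# BG12T piece SIGN (for S1422)

For `p ∈ σ(M)`, the normalizer of a Sylow `p`-subgroup of `G` contained in `M` lies in `M`.
-/

set_option autoImplicit false

namespace Cfsg.Agent.H7.BG12T

open Cfsg Subgroup Cfsg.Agent.H58.BG10 Cfsg.Agent.H57.BG12 Cfsg.Agent.Lib.Helper30.BG12T

universe u

variable {G : Type u} [Group G] [Finite G]

theorem sigN : StSigN G := by
  intro M _hM p _ hp S hSM
  obtain ⟨_, _, P, hP⟩ := hp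
  obtain ⟨m, hm⟩ := MulAction.exists_smul_eq M P (S.subtype hSM)
  have hPQ : ∀ y : M, y ∈ (P : Subgroup M) → ((m : G) * y * (m : G)⁻¹) ∈ (S : Subgroup G) := by
    intro y hy
    have h1 := Subgroup.smul_mem_pointwise_smul y (MulAut.conj m) (P : Subgroup M) hy
    rw [← Sylow.coe_subgroup_smul, hm, Sylow.coe_subtype, Subgroup.mem_subgroupOf] at h1
    simpa [MulAut.smul_def] using h1
  have hm' : P = m⁻¹ • S.subtype hSM := eq_inv_smul_iff.mpr hm
  have hQP : ∀ y : M, (y : G) ∈ (S : Subgroup G) → m⁻¹ * y * m ∈ (P : Subgroup M) := by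
    intro y hy
    have hy' : y ∈ ((S.subtype hSM : Sylow p M) : Subgroup M) := by
      rw [Sylow.coe_subtype, Subgroup.mem_subgroupOf]
      exact hy
    have h1 := Subgroup.smul_mem_pointwise_smul y (MulAut.conj m⁻¹) _ hy'
    rw [← Sylow.coe_subgroup_smul, ← hm'] at h1
    simpa [MulAut.smul_def] using h1
  -- characterization of the image of `P` in `G`
  have hchar : ∀ x : G, x ∈ (P : Subgroup M).map M.subtype ↔
      (m : G) * x * (m : G)⁻¹ ∈ (S : Subgroup G) := by
    intro x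
    constructor
    · rintro ⟨y, hy, rfl⟩
      exact hPQ y hy
    · intro hx
      have hxM : (m : G) * x * (m : G)⁻¹ ∈ M := hSM hx
      have hxM' : x ∈ M := by
        have := M.mul_mem (M.mul_mem (M.inv_mem m.2) hxM) m.2
        simpa [mul_assoc] using this
      have h1 := hQP ⟨(m : G) * x * (m : G)⁻¹, hxM⟩ hx
      refine ⟨m⁻¹ * ⟨(m : G) * x * (m : G)⁻¹, hxM⟩ * m, h1, ?_⟩
      simp [mul_assoc]
  intro g hg
  have hg' : (m : G)⁻¹ * g * (m : G) ∈ normalizer
      ((((P : Subgroup M).map M.subtype : Subgroup G)) : Set G) := by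
    rw [Subgroup.mem_normalizer_iff]
    intro x
    rw [hchar, hchar, (Subgroup.mem_normalizer_iff.mp hg) ((m : G) * x * (m : G)⁻¹)]
    have : (m : G) * ((m : G)⁻¹ * g * (m : G) * x * ((m : G)⁻¹ * g * (m : G))⁻¹) * (m : G)⁻¹ =
        g * ((m : G) * x * (m : G)⁻¹) * g⁻¹ := by group
    rw [this]
  have h2 := hP hg'
  have h3 := M.mul_mem (M.mul_mem m.2 h2) (M.inv_mem m.2)
  have : (m : G) * ((m : G)⁻¹ * g * (m : G)) * (m : G)⁻¹ = g := by group
  rw [this] at h3
  exact h3

example : Cfsg.Agent.Lib.Helper30.BG12T.StSigN G := sigN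

end Cfsg.Agent.H7.BG12T
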