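import Mathlib
import Cfsg.Agent.Lib.Helper30.BG12TDefs

/-!
# BG12T piece WIT (for S1422)

If two distinct maximal subgroups `M`, `L` with `p ∈ σ(M) ∩ σ(L)` contain a Sylow `p`-subgroup
`S` of `G`, every elementary abelian `A ≤ S` of order `p²` has a subgroup `A₀` of order `p`
such that `M` is the only maximal subgroup containing `N_G(A₀)`.
-/

set_option autoImplicit false

namespace Cfsg.Agent.H7.BG12T

open Cfsg Subgroup Cfsg.Agent.H58.BG10 Cfsg.Agent.H57.BG12 Cfsg.Agent.Lib.Helper30.BG12T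

universe u

variable {G : Type u} [Group G] [Finite G]

/-- A `p`-subgroup lies in every normal subgroup of index prime to `p`. -/
theorem pgroup_le_of_normal_of_not_dvd_index {H : Type*} [Group H] [Finite H] (p : ℕ)
    [Fact p.Prime] (N : Subgroup H) [N.Normal] (hN : ¬ p ∣ N.index) (Q : Subgroup H)
    (hQ : IsPGroup p Q) : Q ≤ N := by
  have h1 : IsPGroup p (Q.map (QuotientGroup.mk' N)) := hQ.map _
  have h2 : Nat.card (Q.map (QuotientGroup.mk' N)) ∣ N.index := by
    rw [Subgroup.index_eq_card]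
    exact Subgroup.card_subgroup_dvd_card _
  rcases h1.card_eq_or_dvd with h | h
  · have h3 : Q.map (QuotientGroup.mk' N) = ⊥ := Subgroup.card_eq_one.mp h
    have h4 := (Subgroup.map_eq_bot_iff _).mp h3
    rwa [QuotientGroup.ker_mk'] at h4
  · exact absurd (h.trans h2) hN

omit [Finite G] in
/-- `M_σ` is normalized by `M`. -/
theorem sigmaCore_conj_mem (M : Subgroup G) (m : G) (hm : m ∈ M) (k : G)
    (hk : k ∈ sigmaCore M) : m * k * m⁻¹ ∈ sigmaCore M := by
  obtain ⟨k', hk', rfl⟩ := hk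
  exact ⟨⟨m, hm⟩ * k' * ⟨m, hm⟩⁻¹, (piCore_normal (sigma M) M).conj_mem k' hk' ⟨m, hm⟩, rfl⟩

/-- A Sylow `p`-subgroup of `G` inside `M` lies in `M_σ` when `p ∈ σ(M)` and `M_σ` is a Hall
subgroup of `M`. -/
theorem sylow_le_sigmaCore (M : Subgroup G) (p : ℕ) [Fact p.Prime] (hp : p ∈ sigma M)
    (hHall : IsPiHallOf (sigma M) (sigmaCore M) M) (Q : Subgroup G) (hQ : IsPGroup p Q)
    (hQM : Q ≤ M) : Q ≤ sigmaCore M := by
  have hidx : ¬ p ∣ (piCore (sigma M) M).index := by
    have h1 := hHall.2.2 p hp.1 hp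
    have h2 : (sigmaCore M).relIndex M = (piCore (sigma M) M).index := by
      show (((piCore (sigma M) M).map M.subtype).comap M.subtype).index = _
      rw [Subgroup.comap_map_eq_self_of_injective M.subtype_injective]
    rwa [h2] at h1
  have h3 := pgroup_le_of_normal_of_not_dvd_index p (piCore (sigma M) M) hidx
    (Q.subgroupOf M) hQ.comap_subtype
  intro x hx
  exact ⟨⟨x, hQM hx⟩, h3 (Subgroup.mem_subgroupOf.mpr hx), rfl⟩

/-- If `M_σ` is nilpotent and contains the Sylow `p`-subgroup `S` of `G`, then `M` normalizes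
`S`. -/
theorem le_normalizer_of_nilpotent (M : Subgroup G) (p : ℕ) [Fact p.Prime] (S : Sylow p G)
    (hSK : (S : Subgroup G) ≤ sigmaCore M) (hnil : Group.IsNilpotent ↥(sigmaCore M)) :
    M ≤ normalizer ((S : Subgroup G) : Set G) := by
  have hPn : (S.subtype hSK : Sylow p ↥(sigmaCore M)).Normal :=
    Sylow.normal_of_normalizerCondition Group.normalizerCondition_of_isNilpotent _
  have huniq := Sylow.unique_of_normal (S.subtype hSK) hPn
  have hconj : ∀ m ∈ M, ∀ x ∈ (S : Subgroup G), m * x * m⁻¹ ∈ (S : Subgroup G) := by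
    intro m hm x hx
    have hQ : IsPGroup p (((S : Subgroup G).map (MulAut.conj m).toMonoidHom).subgroupOf
        (sigmaCore M)) := (S.isPGroup'.map _).comap_subtype
    obtain ⟨Q', hQ'⟩ := hQ.exists_le_sylow
    have hQP : Q' = S.subtype hSK := Subsingleton.elim _ _
    have hmem : (⟨m * x * m⁻¹, sigmaCore_conj_mem M m hm x (hSK hx)⟩ : ↥(sigmaCore M)) ∈
        ((S : Subgroup G).map (MulAut.conj m).toMonoidHom).subgroupOf (sigmaCore M) := by
      rw [Subgroup.mem_subgroupOf]
      exact ⟨x, hx, rfl⟩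
    have h1 := hQ' hmem
    rw [hQP] at h1
    have h2 : (⟨m * x * m⁻¹, sigmaCore_conj_mem M m hm x (hSK hx)⟩ : ↥(sigmaCore M)) ∈
        (S : Subgroup G).subgroupOf (sigmaCore M) := by
      rw [← Sylow.coe_subtype]
      exact h1
    exact Subgroup.mem_subgroupOf.mp h2
  intro m hm
  rw [Subgroup.mem_normalizer_iff]
  intro x
  constructor
  · exact hconj m hm x
  · intro hx
    have := hconj m⁻¹ (M.inv_mem hm) _ hx
    simpa [mul_assoc] using this

theorem wit (_hG : IsMinSimpleOddOrder G) (h16 : St1416 G) (h50 : St1350 G) (hN : StSigN G) :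
    StWit G := by
  intro p hpF S M L hM hL hML hSM hSL hpM hpL A hAS hAel hAcard
  by_contra hcon
  have h16' := (h16 M hM p A ⟨hAS.trans hSM, hAel, hAcard⟩).2 (by
    intro A₀ hA₀ hc hu
    exact hcon ⟨A₀, hA₀, hc, hu⟩)
  obtain ⟨_, _, hnil⟩ := h16'
  obtain ⟨hHallM, _, _⟩ := h50 M hM
  have hSK : (S : Subgroup G) ≤ sigmaCore M :=
    sylow_le_sigmaCore M p hpM hHallM (S : Subgroup G) S.isPGroup' hSM
  have hMN : M ≤ normalizer ((S : Subgroup G) : Set G) :=
    le_normalizer_of_nilpotent M p S hSK hnil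
  have hML' : M ≤ L := hMN.trans (hN L hL p hpL S hSL)
  rcases hM.le_iff.mp hML' with h | h
  · exact hL.1 h
  · exact hML h.symm

example (hG : IsMinSimpleOddOrder G) (h16 : St1416 G) (h50 : St1350 G) (hN : StSigN G) :
    Cfsg.Agent.Lib.Helper30.BG12T.StWit G := wit hG h16 h50 hN

end Cfsg.Agent.H7.BG12T
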