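import Mathlib
import Cfsg.Agent.Lib.Helper30.BG12TDefs

/-!
# BG12T piece PS (for S1423)

For `p ∈ σ(M)`, a Sylow `p`-subgroup of `M_σ` is a Sylow `p`-subgroup of `G`.
-/

set_option autoImplicit false

namespace Cfsg.Agent.H7.BG12T

open Cfsg Subgroup Cfsg.Agent.H58.BG10 Cfsg.Agent.H57.BG12 Cfsg.Agent.Lib.Helper30.BG12T

universe u

variable {G : Type u} [Group G] [Finite G]

theorem ps (_hG : IsMinSimpleOddOrder G) (h50 : St1350 G) : StPS G := by
  intro M hM p hpF hp P
  obtain ⟨_, hHall, _⟩ := h50 M hM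
  have hidx : ¬ p ∣ (sigmaCore M).index := hHall.2 p hpF.out hp
  have h1 : ¬ p ∣ ((P : Subgroup ↥(sigmaCore M)).map (sigmaCore M).subtype).index := by
    rw [Subgroup.index_map_subtype]
    intro h
    rcases (Nat.Prime.dvd_mul hpF.out).mp h with h | h
    · exact P.not_dvd_index h
    · exact hidx h
  have h2 : IsPGroup p ((P : Subgroup ↥(sigmaCore M)).map (sigmaCore M).subtype) :=
    P.isPGroup'.map _
  exact ⟨h2.toSylow h1, IsPGroup.toSylow_coe h2 h1⟩

example (hG : IsMinSimpleOddOrder G) (h50 : St1350 G) :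
    Cfsg.Agent.Lib.Helper30.BG12T.StPS G := ps hG h50

end Cfsg.Agent.H7.BG12T
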