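import Mathlib
import Cfsg.Agent.Lib.Helper30.BG12TDefs
import Cfsg.Agent.H58.BG10FG

/-!
# BG12T piece R2 (for S1423)

The main step of S1423 when the Sylow `p`-subgroup `S ≤ M_σ` of `G` has rank at most `2`.
-/

set_option autoImplicit false

namespace Cfsg.Agent.H7.BG12T

open Cfsg Subgroup Cfsg.Agent.H58.BG10 Cfsg.Agent.H57.BG12 Cfsg.Agent.Lib.Helper30.BG12T
open scoped commutatorElement

universe u

variable {G : Type u} [Group G] [Finite G]

/-- In a nonabelian group of order `p³` all commutators are central. -/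
theorem commutator_mem_center_of_card_cube {P : Type*} [Group P] [Finite P] (p : ℕ)
    [hp : Fact p.Prime] (hcard : Nat.card P = p ^ 3) (hnc : ¬ IsMulCommutative P) (a b : P) :
    ⁅a, b⁆ ∈ Subgroup.center P := by
  have hPG : IsPGroup p P := IsPGroup.of_card hcard
  have hnt : Nontrivial P := by
    rw [← Finite.one_lt_card_iff_nontrivial, hcard]
    exact Nat.one_lt_pow (by norm_num) hp.out.one_lt
  obtain ⟨k, hk, hZ⟩ : ∃ k ≤ 3, Nat.card (Subgroup.center P) = p ^ k :=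
    (Nat.dvd_prime_pow hp.out).mp (hcard ▸ Subgroup.card_subgroup_dvd_card _)
  have hidx : Nat.card (P ⧸ Subgroup.center P) * p ^ k = p ^ 3 := by
    rw [← hZ, ← hcard]
    exact (Subgroup.card_eq_card_quotient_mul_card_subgroup _).symm
  have hq : ∀ x y : P ⧸ Subgroup.center P, x * y = y * x := by
    interval_cases k
    · exfalso
      have h1 := hPG.center_nontrivial
      have h2 := Finite.one_lt_card_iff_nontrivial.mpr h1
      rw [hZ, pow_zero] at h2
      exact lt_irrefl _ h2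
    · have h2 : Nat.card (P ⧸ Subgroup.center P) = p ^ 2 := by
        have h3 : Nat.card (P ⧸ Subgroup.center P) * p = p ^ 2 * p := by
          rw [← pow_succ]
          simpa using hidx
        exact Nat.eq_of_mul_eq_mul_right hp.out.pos h3
      exact (IsPGroup.isMulCommutative_of_card_eq_prime_sq h2).is_comm.comm
    · exfalso
      have h2 : Nat.card (P ⧸ Subgroup.center P) = p := by
        have h3 : Nat.card (P ⧸ Subgroup.center P) * p ^ 2 = p * p ^ 2 := by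
          rw [← pow_succ']
          exact hidx
        exact Nat.eq_of_mul_eq_mul_right (pow_pos hp.out.pos 2) h3
      have : IsCyclic (P ⧸ Subgroup.center P) := isCyclic_of_prime_card h2
      exact hnc ((QuotientGroup.mk' (Subgroup.center P)).isMulCommutative_of_isCyclic_of_ker_le_center
        (by rw [QuotientGroup.ker_mk']))
    · exfalso
      have h2 : Subgroup.center P = ⊤ := Subgroup.eq_top_of_card_eq _ (by rw [hZ, hcard])
      refine hnc ⟨⟨fun x y => ?_⟩⟩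
      have hy : y ∈ Subgroup.center P := h2 ▸ Subgroup.mem_top y
      exact Subgroup.mem_center_iff.mp hy x
  rw [← QuotientGroup.eq_one_iff, commutatorElement_def]
  simp only [QuotientGroup.mk_mul, QuotientGroup.mk_inv]
  rw [hq (a : P ⧸ Subgroup.center P) b]
  group

omit [Finite G] in
/-- Elements of the join of two elementwise commuting subgroups are products. -/
theorem mem_sup_of_commute (H K : Subgroup G) (hc : ∀ a ∈ H, ∀ b ∈ K, a * b = b * a) {x : G}
    (hx : x ∈ H ⊔ K) : ∃ a ∈ H, ∃ b ∈ K, x = a * b := by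
  rw [Subgroup.sup_eq_closure_mul] at hx
  induction hx using Subgroup.closure_induction with
  | mem x hx =>
    obtain ⟨a, ha, b, hb, rfl⟩ := hx
    exact ⟨a, ha, b, hb, rfl⟩
  | one => exact ⟨1, H.one_mem, 1, K.one_mem, by rw [one_mul]⟩
  | mul x y _ _ hx hy =>
    obtain ⟨a, ha, b, hb, rfl⟩ := hx
    obtain ⟨a', ha', b', hb', rfl⟩ := hy
    refine ⟨a * a', H.mul_mem ha ha', b * b', K.mul_mem hb hb', ?_⟩
    rw [mul_assoc a b, ← mul_assoc b a', ← hc a' ha' b hb]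
    group
  | inv x _ hx =>
    obtain ⟨a, ha, b, hb, rfl⟩ := hx
    exact ⟨a⁻¹, H.inv_mem ha, b⁻¹, K.inv_mem hb, by
      rw [mul_inv_rev, hc a⁻¹ (H.inv_mem ha) b⁻¹ (K.inv_mem hb)]⟩

omit [Finite G] in
/-- The derived subgroup of `P₁ * P₂` (`P₁` nonabelian of order `p³`, `P₂` cyclic centralizing
`P₁`) is central. -/
theorem commutator_le_centralizer_of_central_product (p : ℕ) [Fact p.Prime]
    (P₁ P₂ : Subgroup G) [Finite P₁] (hcomm : ∀ a ∈ P₁, ∀ b ∈ P₂, a * b = b * a)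
    (hnc : ¬ IsMulCommutative P₁) (hcard : Nat.card P₁ = p ^ 3) (hcyc : IsCyclic P₂) :
    ⁅P₁ ⊔ P₂, P₁ ⊔ P₂⁆ ≤ centralizer ((P₁ ⊔ P₂ : Subgroup G) : Set G) := by
  have hP₂ : ∀ b ∈ P₂, ∀ b' ∈ P₂, b * b' = b' * b := by
    intro b hb b' hb'
    have := (IsCyclic.isMulCommutative : IsMulCommutative ↥P₂).is_comm.comm ⟨b, hb⟩ ⟨b', hb'⟩
    exact congrArg Subtype.val this
  -- elements of `P₂` are central in the join
  have hbc : ∀ b ∈ P₂, ∀ s ∈ P₁ ⊔ P₂, b * s = s * b := by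
    intro b hb s hs
    obtain ⟨a', ha', b', hb', rfl⟩ := mem_sup_of_commute P₁ P₂ hcomm hs
    rw [← mul_assoc, ← hcomm a' ha' b hb, mul_assoc, hP₂ b hb b' hb', mul_assoc]
  rw [Subgroup.commutator_le]
  intro g₁ hg₁ g₂ hg₂
  obtain ⟨a₁, ha₁, b₁, hb₁, rfl⟩ := mem_sup_of_commute P₁ P₂ hcomm hg₁
  obtain ⟨a₂, ha₂, b₂, hb₂, rfl⟩ := mem_sup_of_commute P₁ P₂ hcomm hg₂
  have e1 : b₁ * (a₂ * b₂) * b₁⁻¹ = a₂ * b₂ := by
    rw [hbc b₁ hb₁ _ hg₂, mul_inv_cancel_right]
  have e2 : b₂ * a₁⁻¹ * b₂⁻¹ = a₁⁻¹ := by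
    rw [← hcomm a₁⁻¹ (P₁.inv_mem ha₁) b₂ hb₂, mul_inv_cancel_right]
  have e3 : ⁅a₁ * b₁, a₂ * b₂⁆ = ⁅a₁, a₂⁆ := by
    have h1 : ⁅a₁ * b₁, a₂ * b₂⁆ = a₁ * (b₁ * (a₂ * b₂) * b₁⁻¹) * a₁⁻¹ * (a₂ * b₂)⁻¹ := by
      rw [commutatorElement_def]
      group
    have h2 : a₁ * (a₂ * b₂) * a₁⁻¹ * (a₂ * b₂)⁻¹ = a₁ * a₂ * (b₂ * a₁⁻¹ * b₂⁻¹) * a₂⁻¹ := by
      group
    rw [h1, e1, h2, e2, commutatorElement_def]
  rw [e3]
  -- the commutator is central in `P₁`
  have hcen := commutator_mem_center_of_card_cube p hcard hnc ⟨a₁, ha₁⟩ ⟨a₂, ha₂⟩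
  have hc1 : ∀ a ∈ P₁, a * ⁅a₁, a₂⁆ = ⁅a₁, a₂⁆ * a := by
    intro a ha
    have := Subgroup.mem_center_iff.mp hcen ⟨a, ha⟩
    exact congrArg Subtype.val this
  have hcP : ⁅a₁, a₂⁆ ∈ P₁ := by
    rw [commutatorElement_def]
    exact P₁.mul_mem (P₁.mul_mem (P₁.mul_mem ha₁ ha₂) (P₁.inv_mem ha₁)) (P₁.inv_mem ha₂)
  rw [Subgroup.mem_centralizer_iff]
  intro s hs
  obtain ⟨a', ha', b', hb', rfl⟩ := mem_sup_of_commute P₁ P₂ hcomm hs
  rw [mul_assoc, ← hcomm _ hcP b' hb', ← mul_assoc, hc1 a' ha', mul_assoc]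

theorem main23_r2 (_hG : IsMinSimpleOddOrder G) (h12 : St1412 G) (h14 : St1414 G)
    (h22 : St1422 G) (hFoc : StFoc G) : StMain23R2 G := by
  intro M hM p hpF hpM X _hXM hXcard S hSK hor hrank
  have hp : p.Prime := hpF.out
  have hKM : sigmaCore M ≤ M := Subgroup.map_subtype_le _
  have hSM : (S : Subgroup G) ≤ M := hSK.trans hKM
  have hrM : PRankLE p 2 ↥M := by
    by_contra h
    have h1 := not_pRankLE_sylow (S.subtype hSM) h
    have e : ((S.subtype hSM : Sylow p M) : Subgroup M).map M.subtype = (S : Subgroup G) := by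
      rw [Sylow.coe_subtype]
      exact Subgroup.map_subgroupOf_eq_of_le hSM
    rw [e] at h1
    exact h1 hrank
  have hnb : p ∉ beta M := fun h => h.1.2 hrM
  have hXd : X ≤ ⁅sigmaCore M, sigmaCore M⁆ := hor.resolve_left hnb
  obtain ⟨_, _, _, _, h14'⟩ := h14 M hM
  obtain ⟨_, hcompl, _⟩ := h14' p hp hpM.2.1 hnb
  have hXp : IsPGroup p X := IsPGroup.of_card (n := 1) (by rw [hXcard, pow_one])
  have hrel : ¬ p ∣ (S : Subgroup G).relIndex (sigmaCore M) := fun h =>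
    S.not_dvd_index (h.trans (Subgroup.relIndex_dvd_index_of_le hSK))
  obtain ⟨g, hg, hX1⟩ :=
    hFoc p (sigmaCore M) (S : Subgroup G) X hcompl hSK S.isPGroup' hrel hXd hXp
  have hSnc : ¬ IsMulCommutative (S : Subgroup G) := by
    intro hc
    have h1 : ⁅(S : Subgroup G), (S : Subgroup G)⁆ = ⊥ := by
      rw [Subgroup.commutator_eq_bot_iff_le_centralizer]
      intro a ha
      rw [Subgroup.mem_centralizer_iff]
      intro b hb
      have := hc.is_comm.comm ⟨b, hb⟩ ⟨a, ha⟩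
      exact congrArg Subtype.val this
    rw [h1, le_bot_iff] at hX1
    have h2 : Nat.card (X.map (MulAut.conj g).toMonoidHom) = p := by
      rw [Subgroup.card_map_of_injective (MulAut.conj g).injective, hXcard]
    rw [hX1, Subgroup.card_bot] at h2
    exact hp.one_lt.ne h2
  have hSU : InUniqueMaximal (S : Subgroup G) := h22 p (S : Subgroup G) S.isPGroup' hSnc
  refine ⟨hSU, g, hKM hg, (S : Subgroup G), hSM, hSU, ?_⟩
  rcases h12 p S hrank with hc | ⟨P₁, P₂, hsup, hcomm, hP₁nc, hP₁card, _, hP₂cyc, _⟩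
  · exact absurd hc hSnc
  · rw [Subgroup.le_centralizer_iff]
    refine hX1.trans ?_
    rw [← hsup]
    exact commutator_le_centralizer_of_central_product p P₁ P₂ hcomm hP₁nc hP₁card hP₂cyc

example (hG : IsMinSimpleOddOrder G) (h12 : St1412 G) (h14 : St1414 G) (h22 : St1422 G)
    (hFoc : StFoc G) : Cfsg.Agent.Lib.Helper30.BG12T.StMain23R2 G :=
  main23_r2 hG h12 h14 h22 hFoc

end Cfsg.Agent.H7.BG12T
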