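import Mathlib
import Cfsg.Agent.H42.SpnDefs

/-!
# S5956 piece SPN-INV2EX

In characteristic 2 and for `d` even, the involution `[[1, S], [0, 1]]` of `Sp_{2d}(F)`
(`S` the permutation matrix of the pairing `2k ↔ 2k+1`) has all its invariant nondegenerate
subspaces of dimension divisible by 4.
-/

set_option autoImplicit false

namespace Cfsg.Agent.H7.Spn

open Cfsg.Agent.H45 Cfsg.Agent.H42.Spd Cfsg.Agent.H42.Spn Module

universe u

/-- Abstract core: a square-zero `N` with `ker N ≤ range N` such that `B u (N v)` is a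
symmetric alternating form; invariant nondegenerate subspaces have dimension divisible by 4. -/
theorem four_dvd_core (hE : StEven.{u,u}) {F : Type u} [Field F] [Fintype F] {V : Type u}
    [AddCommGroup V] [Module F V] [FiniteDimensional F V] (B : V →ₗ[F] V →ₗ[F] F)
    (N : Module.End F V)
    (hskew : ∀ u v, B v u = - B u v)
    (hsym : ∀ u v, B u (N v) = B v (N u))
    (halt : ∀ u, B u (N u) = 0)
    (hsq : ∀ v, N (N v) = 0)
    (hker : ∀ v, N v = 0 → ∃ w, v = N w)
    (U : Submodule F V) (hU : ∀ u ∈ U, N u ∈ U) (hnd : U ⊓ perp B U = ⊥) :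
    4 ∣ Module.finrank F U := by
  classical
  obtain ⟨K, hK⟩ : ∃ K : Submodule F V, K = U ⊓ LinearMap.ker N := ⟨_, rfl⟩
  have hKU : ∀ v ∈ K, v ∈ U := fun v hv => by rw [hK] at hv; exact hv.1
  have hKN : ∀ v ∈ K, N v = 0 := fun v hv => by
    rw [hK] at hv; exact LinearMap.mem_ker.mp hv.2
  have hKmk : ∀ v ∈ U, N v = 0 → v ∈ K := fun v hv h => by
    rw [hK]; exact ⟨hv, LinearMap.mem_ker.mpr h⟩
  obtain ⟨q, hq⟩ := Submodule.exists_isCompl K
  obtain ⟨C, hC⟩ : ∃ C : Submodule F V, C = U ⊓ q := ⟨_, rfl⟩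
  have hCU : ∀ v ∈ C, v ∈ U := fun v hv => by rw [hC] at hv; exact hv.1
  have hCK : C ⊓ K = ⊥ := by
    rw [eq_bot_iff]
    intro v hv
    have hv1 : v ∈ C := hv.1
    rw [hC] at hv1
    have : v ∈ K ⊓ q := ⟨hv.2, hv1.2⟩
    rw [hq.inf_eq_bot] at this
    exact this
  have hCKsup : C ⊔ K = U := by
    apply le_antisymm
    · exact sup_le (fun v hv => hCU v hv) (fun v hv => hKU v hv)
    · intro v hv
      have hv' : v ∈ K ⊔ q := by rw [hq.sup_eq_top]; trivial
      obtain ⟨k, hk, c, hc, rfl⟩ := Submodule.mem_sup.mp hv'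
      have hcU : c ∈ U := by
        have := U.sub_mem hv (hKU k hk)
        simpa using this
      rw [add_comm]
      refine Submodule.add_mem_sup ?_ hk
      rw [hC]
      exact ⟨hcU, hc⟩
  have hzero : ∀ c ∈ U, (∀ u ∈ U, B u (N c) = 0) → N c = 0 := by
    intro c hc h
    have : N c ∈ U ⊓ perp B U := ⟨hU c hc, h⟩
    rw [hnd] at this
    exact (Submodule.mem_bot F).mp this
  have hA : ∀ u ∈ K, ∃ c ∈ C, u = N c := by
    intro u hu
    obtain ⟨w, hw⟩ := hker u (hKN u hu)
    have hcompl := isCompl_perp B U hnd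
    have hw' : w ∈ U ⊔ perp B U := by rw [hcompl.sup_eq_top]; trivial
    obtain ⟨w1, hw1, w2, hw2, rfl⟩ := Submodule.mem_sup.mp hw'
    have h2 : N w2 ∈ U ⊓ perp B U := by
      refine ⟨?_, ?_⟩
      · have : N w2 = u - N w1 := by rw [hw, map_add]; abel
        rw [this]
        exact U.sub_mem (hKU u hu) (hU w1 hw1)
      · intro u' hu'
        rw [hsym, hskew, hw2 (N u') (hU u' hu'), neg_zero]
    rw [hnd, Submodule.mem_bot] at h2
    have hw1' : w1 ∈ C ⊔ K := by rw [hCKsup]; exact hw1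
    obtain ⟨c, hc, k, hk, rfl⟩ := Submodule.mem_sup.mp hw1'
    refine ⟨c, hc, ?_⟩
    rw [hw, map_add, map_add, h2, add_zero, hKN k hk, add_zero]
  let γ : ↥C →ₗ[F] ↥C →ₗ[F] F := (B.compl₂ N).domRestrict₁₂ C C
  have hγ : ∀ a b : ↥C, γ a b = B (a : V) (N (b : V)) := fun a b => rfl
  have hγnd : ∀ c : ↥C, (∀ c' : ↥C, γ c c' = 0) → c = 0 := by
    intro c h
    have h1 : N (c : V) = 0 := by
      apply hzero _ (hCU _ c.2)
      intro u hu
      have hu' : u ∈ C ⊔ K := by rw [hCKsup]; exact hu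
      obtain ⟨c', hc', k, hk, rfl⟩ := Submodule.mem_sup.mp hu'
      rw [hsym, map_add, hKN k hk, add_zero]
      exact h ⟨c', hc'⟩
    have : (c : V) ∈ C ⊓ K := ⟨c.2, hKmk _ (hCU _ c.2) h1⟩
    rw [hCK, Submodule.mem_bot] at this
    exact Subtype.ext this
  have hiso : Iso γ (1 : Module.End F ↥C) := ⟨fun c => halt _, hγnd, fun _ _ => rfl⟩
  have heven := hE F ↥C γ 1 hiso ⊤ (by
    rw [eq_bot_iff]
    intro c hc
    rw [Submodule.mem_bot]
    apply hγnd
    intro c'
    rw [hγ, hsym]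
    exact hc.2 c' trivial)
  rw [finrank_top] at heven
  have hdim1 : Module.finrank F ↥K = Module.finrank F ↥C := by
    let φ : ↥C →ₗ[F] ↥K := (N.domRestrict C).codRestrict K
      (fun c => hKmk _ (hU _ (hCU _ c.2)) (hsq _))
    have hφ : Function.Bijective φ := by
      constructor
      · rw [← LinearMap.ker_eq_bot, LinearMap.ker_eq_bot']
        intro c hc
        have h1 : N (c : V) = 0 := congrArg Subtype.val hc
        have : (c : V) ∈ C ⊓ K := ⟨c.2, hKmk _ (hCU _ c.2) h1⟩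
        rw [hCK, Submodule.mem_bot] at this
        exact Subtype.ext this
      · intro k
        obtain ⟨c, hc, hkc⟩ := hA k k.2
        exact ⟨⟨c, hc⟩, Subtype.ext hkc.symm⟩
    exact (LinearEquiv.ofBijective φ hφ).finrank_eq.symm
  have hdim2 := Submodule.finrank_sup_add_finrank_inf_eq C K
  rw [hCKsup, hCK, finrank_bot, add_zero, hdim1] at hdim2
  obtain ⟨k, hk⟩ := heven
  exact ⟨k, by omega⟩

/-- The pairing `2k ↔ 2k+1` on `ℕ`. -/
def fl (i : ℕ) : ℕ := if i % 2 = 0 then i + 1 else i - 1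

theorem fl_fl (i : ℕ) : fl (fl i) = i := by
  unfold fl
  split_ifs <;> omega

theorem fl_ne (i : ℕ) : fl i ≠ i := by
  unfold fl
  split_ifs <;> omega

theorem fl_lt {d : ℕ} (hd : Even d) {i : ℕ} (hi : i < d) : fl i < d := by
  obtain ⟨k, rfl⟩ := hd
  unfold fl
  split_ifs <;> omega

/-- The pairing as a permutation of `Fin d`, `d` even. -/
def flPerm (d : ℕ) (hd : Even d) : Equiv.Perm (Fin d) :=
  Function.Involutive.toPerm (fun i => ⟨fl i, fl_lt hd i.2⟩) (fun i => Fin.ext (fl_fl i))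

theorem flPerm_flPerm (d : ℕ) (hd : Even d) (i : Fin d) : flPerm d hd (flPerm d hd i) = i :=
  Fin.ext (fl_fl i)

theorem flPerm_ne (d : ℕ) (hd : Even d) (i : Fin d) : flPerm d hd i ≠ i := fun h =>
  fl_ne i (congrArg Fin.val h)

theorem inv2Ex (hE : StEven.{u,u}) : StInv2Ex.{u} := by
  intro F _ _ h2 d hd hd0
  classical
  obtain ⟨σ, hσ⟩ : ∃ σ : Equiv.Perm (Fin d), σ = flPerm d hd := ⟨_, rfl⟩
  have hσσ : ∀ i, σ (σ i) = i := fun i => by rw [hσ]; exact flPerm_flPerm d hd i
  have hσne : ∀ i, σ i ≠ i := fun i => by rw [hσ]; exact flPerm_ne d hd i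
  obtain ⟨S, hS⟩ : ∃ S : Matrix (Fin d) (Fin d) F, S = σ.permMatrix F := ⟨_, rfl⟩
  have hSv : ∀ v : Fin d → F, S.mulVec v = fun i => v (σ i) := by
    intro v
    rw [hS, Matrix.permMatrix_mulVec]
    rfl
  have hST : S.transpose = S := by
    rw [hS, Matrix.transpose_permMatrix]
    congr 1
    ext i
    rw [Equiv.Perm.inv_eq_iff_eq.mpr (hσσ i).symm]
  have hSS : S + S = 0 := by
    rw [← two_smul F S, h2, zero_smul]
  obtain ⟨X, hX⟩ : ∃ X : Matrix (Fin d ⊕ Fin d) (Fin d ⊕ Fin d) F,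
    X = Matrix.fromBlocks 1 S 0 1 := ⟨_, rfl⟩
  have hXmem : X ∈ Matrix.symplecticGroup (Fin d) F := by
    rw [hX, SymplecticGroup.fromBlocks_mem_iff, hST]
    simp
  have hXX : X * X = 1 := by
    rw [hX, Matrix.fromBlocks_multiply]
    simp [hSS, Matrix.fromBlocks_one]
  have hXv : ∀ v : Fin d ⊕ Fin d → F, X.mulVec v =
      Sum.elim (fun i => v (Sum.inl i) + v (Sum.inr (σ i))) (fun i => v (Sum.inr i)) := by
    intro v
    rw [hX, Matrix.fromBlocks_mulVec, hSv]
    simp
    rfl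
  refine ⟨⟨X, hXmem⟩, Subtype.ext hXX, ?_, ?_⟩
  · intro h
    have h1 : X = 1 := congrArg Subtype.val h
    have h3 := hXv (fun _ => 1)
    rw [h1, Matrix.one_mulVec] at h3
    have h4 := congrFun h3 (Sum.inl ⟨0, hd0⟩)
    simp only [Sum.elim_inl] at h4
    have h5 : (1 : F) + 1 = 0 := by rw [one_add_one_eq_two, h2]
    rw [h5] at h4
    exact one_ne_zero h4
  · intro W hW hnd
    have hnd' : W ⊓ perp (stdB d F) W = ⊥ := (nd_iff d W).mpr hnd
    obtain ⟨N, hN⟩ : ∃ N : Module.End F (Fin d ⊕ Fin d → F), N = Matrix.toLin' X - 1 :=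
      ⟨_, rfl⟩
    have hNv : ∀ v, N v = Sum.elim (fun i => v (Sum.inr (σ i))) (fun _ => 0) := by
      intro v
      rw [hN, LinearMap.sub_apply, Matrix.toLin'_apply, hXv]
      funext x
      cases x with
      | inl i => simp
      | inr i => simp
    have hBN : ∀ u v, stdB d F u (N v) = ∑ i, u (Sum.inr i) * v (Sum.inr (σ i)) := by
      intro u v
      rw [stdB_apply, Cfsg.sympForm, hNv, Matrix.J, Matrix.fromBlocks_mulVec]
      simp [dotProduct, Fintype.sum_sum_type]
      refine Finset.sum_eq_zero (fun i _ => ?_)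
      rw [Matrix.neg_mulVec, Matrix.one_mulVec]
      simp
    refine four_dvd_core hE (stdB d F) N (fun u v => stdB_skew d u v) ?_ ?_ ?_ ?_ W ?_ hnd'
    · intro u v
      rw [hBN, hBN, ← Equiv.sum_comp σ (fun i => v (Sum.inr i) * u (Sum.inr (σ i)))]
      refine Finset.sum_congr rfl (fun i _ => ?_)
      rw [hσσ, mul_comm]
    · intro u
      rw [hBN]
      refine Finset.sum_involution (fun i _ => σ i) ?_ (fun i _ _ => hσne i)
        (fun i _ => Finset.mem_univ _) (fun i _ => hσσ i)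
      intro i _
      rw [hσσ, mul_comm (u (Sum.inr (σ i))), ← two_mul, h2, zero_mul]
    · intro v
      rw [hNv (N v), hNv v]
      funext x
      cases x with
      | inl i => simp
      | inr i => simp
    · intro v hv
      rw [hNv] at hv
      have hr : ∀ j, v (Sum.inr j) = 0 := by
        intro j
        have := congrFun hv (Sum.inl (σ j))
        simp only [Sum.elim_inl, hσσ] at this
        exact this
      refine ⟨Sum.elim (fun _ => 0) (fun j => v (Sum.inl (σ j))), ?_⟩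
      rw [hNv]
      funext x
      cases x with
      | inl i => simp [hσσ]
      | inr i => simp [hr]
    · intro u hu
      have h1 : Matrix.toLin' X u ∈ W := hW (Submodule.mem_map_of_mem hu)
      rw [hN, LinearMap.sub_apply, Module.End.one_apply]
      exact W.sub_mem h1 hu

example (hE : Cfsg.Agent.H42.Spn.StEven.{u,u}) : Cfsg.Agent.H42.Spn.StInv2Ex.{u} :=
  inv2Ex hE

end Cfsg.Agent.H7.Spn
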