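import Mathlib
import Cfsg.Agent.H93.ConwayDefs

/-!
# S0406 piece C-T3

The vectors of shape `(±3, (±1)^23)` of `Λ`: at most `24 · |C|` of them, `C` the binary code of
`Λ` (a vector of this shape is determined by the position of `±3` and by its class modulo `2Λ`
relative to a fixed one).
-/

set_option autoImplicit false

namespace Cfsg.Agent.H7.Conway

open Cfsg.Agent.H93.Conway

theorem isT3_odd (x : Fin 24 → ℤ) (h : IsT3 x) (i : Fin 24) : x i % 2 = 1 := by
  obtain ⟨i0, h0, h1⟩ := h
  by_cases hi : i = i0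
  · subst hi
    rcases h0 with h | h <;> rw [h] <;> rfl
  · rcases h1 i hi with h | h <;> rw [h] <;> rfl

theorem t3 : StmtT3 := by
  intro Λ _hΛ C hC
  classical
  by_cases hne : ∃ z, z ∈ Λ ∧ IsT3 z
  · obtain ⟨z, hzΛ, hzT⟩ := hne
    have hmem : ∀ x : ↥{x : Fin 24 → ℤ | x ∈ Λ ∧ IsT3 x},
        (fun i => ((((x : Fin 24 → ℤ) i - z i) / 2 : ℤ) : ZMod 2)) ∈ C := by
      intro x
      have h1 : (fun i => ((((x : Fin 24 → ℤ) i - z i) / 2 : ℤ) : ZMod 2)) ∈ codeOf Λ := by
        refine ⟨(x : Fin 24 → ℤ) - z, Λ.sub_mem x.2.1 hzΛ, ?_, fun i => rfl⟩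
        intro i
        have h2 := isT3_odd _ x.2.2 i
        have h3 := isT3_odd z hzT i
        rw [Pi.sub_apply]
        omega
      rw [← hC] at h1
      exact h1
    have hinj : Function.Injective (fun x : ↥{x : Fin 24 → ℤ | x ∈ Λ ∧ IsT3 x} =>
        ((Classical.choose x.2.2, ⟨_, hmem x⟩) : Fin 24 × ↥C)) := by
      intro x x' h
      have h1 : Classical.choose x.2.2 = Classical.choose x'.2.2 := congrArg Prod.fst h
      have h2 : (fun i => ((((x : Fin 24 → ℤ) i - z i) / 2 : ℤ) : ZMod 2)) =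
          (fun i => ((((x' : Fin 24 → ℤ) i - z i) / 2 : ℤ) : ZMod 2)) :=
        congrArg (fun p : Fin 24 × ↥C => (p.2 : Fin 24 → ZMod 2)) h
      obtain ⟨hx0, hx1⟩ := Classical.choose_spec x.2.2
      obtain ⟨hx0', hx1'⟩ := Classical.choose_spec x'.2.2
      apply Subtype.ext
      funext i
      have h3 : ((((x : Fin 24 → ℤ) i - z i) / 2 : ℤ) : ZMod 2) =
          ((((x' : Fin 24 → ℤ) i - z i) / 2 : ℤ) : ZMod 2) := congrFun h2 i
      have h4 := (ZMod.intCast_eq_intCast_iff_dvd_sub _ _ 2).mp h3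
      have hz := isT3_odd z hzT i
      have hxo := isT3_odd _ x.2.2 i
      have hxo' := isT3_odd _ x'.2.2 i
      by_cases hi : i = Classical.choose x.2.2
      · have hi' : i = Classical.choose x'.2.2 := hi.trans h1
        rw [← hi] at hx0
        rw [← hi'] at hx0'
        push_cast at h4
        omega
      · have hi' : i ≠ Classical.choose x'.2.2 := fun h => hi (h.trans h1.symm)
        have hxa := hx1 i hi
        have hxa' := hx1' i hi'
        push_cast at h4
        omega
    have hcard := Nat.card_le_card_of_injective _ hinj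
    rw [Nat.card_prod, Nat.card_fin, Nat.card_coe_set_eq] at hcard
    exact hcard
  · have hempty : {x : Fin 24 → ℤ | x ∈ Λ ∧ IsT3 x} = ∅ := by
      ext x
      simp only [Set.mem_empty_iff_false, iff_false]
      exact fun h => hne ⟨x, h⟩
    rw [hempty, Set.ncard_empty]
    exact Nat.zero_le _

example : Cfsg.Agent.H93.Conway.StmtT3 := t3

end Cfsg.Agent.H7.Conway
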