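import Mathlib
import Cfsg.Agent.H95.FHDefs

/-!
# S1142 piece FH-LW

Leading words: `alt (1 + a) (1 + c) m ≡ alt a c m` modulo the words of length `< m`, and the
word `alt a c m` (resp. `alt c a m`) is not in the span of the shorter words.
-/

set_option autoImplicit false

universe u

namespace Cfsg.Agent.H7.FH

open Matrix Cfsg.Agent.H95.FH

variable {Ω : Type u} [Fintype Ω] [DecidableEq Ω]

theorem fil_mono (a c : Matrix Ω Ω ℝ) {l l' : ℕ} (h : l ≤ l') : Fil a c l ≤ Fil a c l' := by
  apply Submodule.span_mono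
  rintro X ⟨k, hk, hX⟩
  exact ⟨k, le_trans hk h, hX⟩

theorem fil_comm (a c : Matrix Ω Ω ℝ) (l : ℕ) : Fil c a l = Fil a c l := by
  unfold Fil
  congr 1
  ext X
  exact ⟨fun ⟨k, hk, h⟩ => ⟨k, hk, h.symm⟩, fun ⟨k, hk, h⟩ => ⟨k, hk, h.symm⟩⟩

theorem alt_mem_fil (a c : Matrix Ω Ω ℝ) {k l : ℕ} (h : k ≤ l) : alt a c k ∈ Fil a c l :=
  Submodule.subset_span ⟨k, h, Or.inl rfl⟩

theorem alt_mem_fil' (a c : Matrix Ω Ω ℝ) {k l : ℕ} (h : k ≤ l) : alt c a k ∈ Fil a c l :=
  Submodule.subset_span ⟨k, h, Or.inr rfl⟩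

theorem alt_succ' {R : Type*} [Monoid R] (x y : R) (k : ℕ) :
    alt x y (k + 1) = x * alt y x k := rfl

theorem alt_zero' {R : Type*} [Monoid R] (x y : R) : alt x y 0 = 1 := rfl

/-- Left multiplication by a generator raises the filtration degree by at most one. -/
theorem mul_fil (a c : Matrix Ω Ω ℝ) (s : ℝ)
    (hsq : a * a = s • (1 : Matrix Ω Ω ℝ) + (s - 1) • a) (l : ℕ) :
    ∀ X ∈ Fil a c l, a * X ∈ Fil a c (l + 1) := by
  intro X hX
  unfold Fil at hX
  induction hX using Submodule.span_induction with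
  | mem X hX =>
    obtain ⟨k, hk, rfl | rfl⟩ := hX
    · cases k with
      | zero =>
        have h1 : a * alt a c 0 = alt a c 1 := by
          rw [alt_succ', alt_zero', alt_zero']
        rw [h1]
        exact alt_mem_fil a c (by omega)
      | succ k =>
        have h1 : a * alt a c (k + 1) = s • alt c a k + (s - 1) • alt a c (k + 1) := by
          rw [alt_succ', ← mul_assoc, hsq, add_mul, smul_mul_assoc, one_mul, smul_mul_assoc]
        rw [h1]
        exact Submodule.add_mem _ (Submodule.smul_mem _ _ (alt_mem_fil' a c (by omega)))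
          (Submodule.smul_mem _ _ (alt_mem_fil a c (by omega)))
    · have h1 : a * alt c a k = alt a c (k + 1) := rfl
      rw [h1]
      exact alt_mem_fil a c (by omega)
  | zero =>
    rw [mul_zero]
    exact Submodule.zero_mem _
  | add X Y _ _ hX hY =>
    rw [mul_add]
    exact Submodule.add_mem _ hX hY
  | smul r X _ hX =>
    rw [mul_smul_comm]
    exact Submodule.smul_mem _ _ hX

/-- The leading term of `alt (1 + a) (1 + c) m`. -/
theorem lw_diff (a c : Matrix Ω Ω ℝ) (s t : ℝ)
    (ha : a * a = s • (1 : Matrix Ω Ω ℝ) + (s - 1) • a)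
    (hc : c * c = t • (1 : Matrix Ω Ω ℝ) + (t - 1) • c) (m : ℕ) :
    alt (1 + a) (1 + c) (m + 1) - alt a c (m + 1) ∈ Fil a c m ∧
      alt (1 + c) (1 + a) (m + 1) - alt c a (m + 1) ∈ Fil a c m := by
  induction m with
  | zero =>
    constructor
    · have h1 : alt (1 + a) (1 + c) 1 - alt a c 1 = alt a c 0 := by
        rw [alt_succ', alt_succ', alt_zero', alt_zero', alt_zero', mul_one, mul_one,
          add_sub_cancel_right]
      rw [zero_add, h1]
      exact alt_mem_fil a c le_rfl
    · have h1 : alt (1 + c) (1 + a) 1 - alt c a 1 = alt c a 0 := by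
        rw [alt_succ', alt_succ', alt_zero', alt_zero', alt_zero', mul_one, mul_one,
          add_sub_cancel_right]
      rw [zero_add, h1]
      exact alt_mem_fil' a c le_rfl
  | succ m ih =>
    obtain ⟨ih1, ih2⟩ := ih
    constructor
    · have h1 : alt (1 + a) (1 + c) (m + 1 + 1) - alt a c (m + 1 + 1) =
          alt c a (m + 1) + (alt (1 + c) (1 + a) (m + 1) - alt c a (m + 1)) +
            a * (alt (1 + c) (1 + a) (m + 1) - alt c a (m + 1)) := by
        rw [alt_succ' (1 + a) (1 + c) (m + 1), alt_succ' a c (m + 1), add_mul, one_mul, mul_sub]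
        abel
      rw [h1]
      exact Submodule.add_mem _ (Submodule.add_mem _ (alt_mem_fil' a c le_rfl)
        (fil_mono a c (Nat.le_succ m) ih2)) (mul_fil a c s ha m _ ih2)
    · have h1 : alt (1 + c) (1 + a) (m + 1 + 1) - alt c a (m + 1 + 1) =
          alt a c (m + 1) + (alt (1 + a) (1 + c) (m + 1) - alt a c (m + 1)) +
            c * (alt (1 + a) (1 + c) (m + 1) - alt a c (m + 1)) := by
        rw [alt_succ' (1 + c) (1 + a) (m + 1), alt_succ' c a (m + 1), add_mul, one_mul, mul_sub]
        abel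
      rw [h1]
      refine Submodule.add_mem _ (Submodule.add_mem _ (alt_mem_fil a c le_rfl)
        (fil_mono a c (Nat.le_succ m) ih1)) ?_
      rw [← fil_comm a c (m + 1)]
      refine mul_fil c a t hc m _ ?_
      rw [fil_comm a c m]
      exact ih1

omit [Fintype Ω] [DecidableEq Ω] in
/-- Pointwise orthogonality to a matrix passes to spans. -/
theorem pt_zero_of_mem_span (B : Matrix Ω Ω ℝ) (s : Set (Matrix Ω Ω ℝ))
    (h : ∀ X ∈ s, ∀ x y, B x y * X x y = 0) :
    ∀ X ∈ Submodule.span ℝ s, ∀ x y, B x y * X x y = 0 := by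
  intro X hX
  induction hX using Submodule.span_induction with
  | mem X hX => exact h X hX
  | zero =>
    intro x y
    rw [Matrix.zero_apply, mul_zero]
  | add X Y _ _ hX hY =>
    intro x y
    rw [Matrix.add_apply, mul_add, hX, hY, add_zero]
  | smul r X _ hX =>
    intro x y
    rw [Matrix.smul_apply, smul_eq_mul, mul_left_comm, hX, mul_zero]

theorem wt_pos' (p q : ℕ) (hp : 2 ≤ p) (hq : 2 ≤ q) (k : ℕ) : 0 < wt (p : ℝ) (q : ℝ) k := by
  have hp' : (0 : ℝ) < p := by exact_mod_cast (by omega : 0 < p)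
  have hq' : (0 : ℝ) < q := by exact_mod_cast (by omega : 0 < q)
  unfold wt
  exact mul_pos (pow_pos hp' _) (pow_pos hq' _)

theorem lw (hRow : RowStmt.{u}) : LWStmt.{u} := by
  intro Ω _ _ a c p q n hH m hm1 hmn
  obtain ⟨_, hra, hrc⟩ := hRow a c p q n hH
  obtain ⟨m', rfl⟩ : ∃ m', m = m' + 1 := ⟨m - 1, by omega⟩
  have hd := lw_diff a c p q hH.sq_a hH.sq_c m'
  rw [Nat.add_sub_cancel]
  refine ⟨hd.1, hd.2, ?_, ?_⟩
  · intro hmem
    have h0 : ∀ x y, alt a c (m' + 1) x y * alt a c (m' + 1) x y = 0 := by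
      refine pt_zero_of_mem_span (alt a c (m' + 1)) _ ?_ _ hmem
      rintro X ⟨k, hk, rfl | rfl⟩ x y
      · rw [mul_comm]
        exact hH.disj_aa k (m' + 1) (by omega) hmn (by omega) x y
      · cases k with
        | zero =>
          have h1 : alt c a 0 = alt a c 0 := rfl
          rw [h1, mul_comm]
          exact hH.disj_aa 0 (m' + 1) (by omega) hmn (by omega) x y
        | succ k => exact hH.disj_ac (m' + 1) (k + 1) hmn (by omega) (by omega) x y
    obtain ⟨x⟩ := hH.ne
    have hrow := hra (m' + 1) hmn x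
    have hz : ∑ y, alt a c (m' + 1) x y = 0 :=
      Finset.sum_eq_zero (fun y _ => mul_self_eq_zero.mp (h0 x y))
    rw [hz] at hrow
    have hwt := wt_pos' p q hH.hp hH.hq (m' + 1)
    linarith
  · intro hmem
    have h0 : ∀ x y, alt c a (m' + 1) x y * alt c a (m' + 1) x y = 0 := by
      refine pt_zero_of_mem_span (alt c a (m' + 1)) _ ?_ _ hmem
      rintro X ⟨k, hk, rfl | rfl⟩ x y
      · rcases Nat.lt_or_ge (m' + 1) n with hlt | hge
        · rw [mul_comm]
          exact hH.disj_ac k (m' + 1) (by omega) (by omega) hlt x y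
        · have hmn' : m' + 1 = n := le_antisymm hmn hge
          rw [hmn', ← hH.braid, mul_comm]
          exact hH.disj_aa k n (by omega) le_rfl (by omega) x y
      · rw [mul_comm]
        exact hH.disj_cc k (m' + 1) (by omega) hmn (by omega) x y
    obtain ⟨x⟩ := hH.ne
    have hrow := hrc (m' + 1) hmn x
    have hz : ∑ y, alt c a (m' + 1) x y = 0 :=
      Finset.sum_eq_zero (fun y _ => mul_self_eq_zero.mp (h0 x y))
    rw [hz] at hrow
    have hwt := wt_pos' q p hH.hq hH.hp (m' + 1)
    linarith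

example (hRow : Cfsg.Agent.H95.FH.RowStmt.{u}) : Cfsg.Agent.H95.FH.LWStmt.{u} := lw hRow

end Cfsg.Agent.H7.FH
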