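import Mathlib
import Cfsg.Agent.H98.GuDefs
import Cfsg.Agent.H7.Unitary
import Cfsg.Agent.H17.Symp

/-!
# S5976 piece CARDISO

The centraliser of the standard skew root `J0 n δ = [[0, 1], [δ, 0]]` in `Sp_{2n}(F)` has as many
elements as `GU_n` over the quadratic extension `L = F(ω)`, `ω² = δ`.  Both sides are in
bijection with the pairs `(A, B)` of `n × n` matrices over `F` with `Aᵀ B = Bᵀ A` and
`Aᵀ A - δ Bᵀ B = 1`: `g = [[A, B], [δ B, A]]` and `M = A + ω B`.
-/

set_option autoImplicit false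

namespace Cfsg.Agent.H7.Gu

open Matrix Cfsg Cfsg.Agent.H98.Gu

universe u

section Pairs

variable {F : Type u} [Field F]

/-- The common parameter set. -/
def PairSet (n : ℕ) (δ : F) : Set (Matrix (Fin n) (Fin n) F × Matrix (Fin n) (Fin n) F) :=
  {AB | AB.1ᵀ * AB.2 = AB.2ᵀ * AB.1 ∧ AB.1ᵀ * AB.1 - δ • (AB.2ᵀ * AB.2) = 1}

/-- The block form of `Xᵀ J X` for `X = [[A, B], [δ B, A]]`. -/
theorem sp_blocks (n : ℕ) (δ : F) (A B : Matrix (Fin n) (Fin n) F) :
    (fromBlocks A B (δ • B) A)ᵀ * J (Fin n) F * fromBlocks A B (δ • B) A =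
      fromBlocks (δ • (Bᵀ * A - Aᵀ * B)) (-(Aᵀ * A - δ • (Bᵀ * B)))
        (Aᵀ * A - δ • (Bᵀ * B)) (Aᵀ * B - Bᵀ * A) := by
  rw [Matrix.J, fromBlocks_transpose, fromBlocks_multiply, fromBlocks_multiply]
  congr 1
  · simp only [mul_zero, mul_one, zero_add, mul_neg, add_zero, neg_mul, transpose_smul,
      smul_mul_assoc, mul_smul_comm]
    module
  · simp only [mul_zero, mul_one, zero_add, mul_neg, add_zero, neg_mul, transpose_smul,
      smul_mul_assoc]
    module
  · simp only [mul_zero, mul_one, zero_add, mul_neg, add_zero, neg_mul,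
      mul_smul_comm]
    module
  · simp only [mul_zero, mul_one, zero_add, mul_neg, add_zero, neg_mul]
    module

theorem sp_of_pair (n : ℕ) (δ : F) (A B : Matrix (Fin n) (Fin n) F)
    (h : (A, B) ∈ PairSet n δ) :
    fromBlocks A B (δ • B) A ∈ Matrix.symplecticGroup (Fin n) F := by
  obtain ⟨h1, h2⟩ := h
  rw [SymplecticGroup.mem_iff', sp_blocks]
  simp only at h1 h2
  rw [h2, h1, sub_self, smul_zero, Matrix.J]

theorem pair_of_sp (n : ℕ) (δ : F) (A B : Matrix (Fin n) (Fin n) F)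
    (h : fromBlocks A B (δ • B) A ∈ Matrix.symplecticGroup (Fin n) F) :
    (A, B) ∈ PairSet n δ := by
  rw [SymplecticGroup.mem_iff', sp_blocks, Matrix.J, fromBlocks_inj] at h
  obtain ⟨_, _, h3, h4⟩ := h
  exact ⟨sub_eq_zero.mp h4, h3⟩

/-- Matrices commuting with `J0` have the block form `[[A, B], [δ B, A]]`. -/
theorem blocks_of_comm (n : ℕ) (δ : F) (g : Matrix (Fin n ⊕ Fin n) (Fin n ⊕ Fin n) F)
    (h : g * J0 n δ = J0 n δ * g) :
    g = fromBlocks g.toBlocks₁₁ g.toBlocks₁₂ (δ • g.toBlocks₁₂) g.toBlocks₁₁ := by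
  have hg : g = fromBlocks g.toBlocks₁₁ g.toBlocks₁₂ g.toBlocks₂₁ g.toBlocks₂₂ :=
    (fromBlocks_toBlocks g).symm
  rw [hg, J0, fromBlocks_multiply, fromBlocks_multiply, fromBlocks_inj] at h
  obtain ⟨h1, h2, _, _⟩ := h
  simp only [mul_zero, zero_add, mul_one, add_zero, zero_mul, one_mul, mul_smul_comm] at h1 h2
  conv_lhs => rw [hg]
  rw [← h1, ← h2]

theorem comm_of_blocks (n : ℕ) (δ : F) (A B : Matrix (Fin n) (Fin n) F) :
    fromBlocks A B (δ • B) A * J0 n δ = J0 n δ * fromBlocks A B (δ • B) A := by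
  rw [J0, fromBlocks_multiply, fromBlocks_multiply]
  congr 1 <;> simp

/-- The symplectic centraliser of `J0` is in bijection with the pairs. -/
theorem card_sp_cent (n : ℕ) (δ : F) :
    Nat.card ↥(Cfsg.spGL n F ⊓ centJ (J0 n δ)) = Nat.card ↥(PairSet n δ) := by
  have hmat : ∀ g : ↥(Cfsg.spGL n F ⊓ centJ (J0 n δ)),
      ((g : GL (Fin n ⊕ Fin n) F) : Matrix (Fin n ⊕ Fin n) (Fin n ⊕ Fin n) F) =
        fromBlocks (g.1 : Matrix (Fin n ⊕ Fin n) (Fin n ⊕ Fin n) F).toBlocks₁₁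
          (g.1 : Matrix (Fin n ⊕ Fin n) (Fin n ⊕ Fin n) F).toBlocks₁₂
          (δ • (g.1 : Matrix (Fin n ⊕ Fin n) (Fin n ⊕ Fin n) F).toBlocks₁₂)
          (g.1 : Matrix (Fin n ⊕ Fin n) (Fin n ⊕ Fin n) F).toBlocks₁₁ :=
    fun g => blocks_of_comm n δ _ ((mem_centJ _ _).mp (Subgroup.mem_inf.mp g.2).2)
  have hpair : ∀ g : ↥(Cfsg.spGL n F ⊓ centJ (J0 n δ)),
      ((g.1 : Matrix (Fin n ⊕ Fin n) (Fin n ⊕ Fin n) F).toBlocks₁₁,
        (g.1 : Matrix (Fin n ⊕ Fin n) (Fin n ⊕ Fin n) F).toBlocks₁₂) ∈ PairSet n δ := by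
    intro g
    apply pair_of_sp
    rw [← hmat g]
    exact (Cfsg.Agent.H17.mem_symplecticGroup_iff_form n _).mpr (Subgroup.mem_inf.mp g.2).1
  refine Nat.card_congr (Equiv.ofBijective
    (fun g => (⟨_, hpair g⟩ : ↥(PairSet n δ))) ⟨?_, ?_⟩)
  · intro g g' h
    have h1 := congrArg (fun x : ↥(PairSet n δ) => x.1.1) h
    have h2 := congrArg (fun x : ↥(PairSet n δ) => x.1.2) h
    simp only at h1 h2
    apply Subtype.ext
    apply Units.ext
    rw [hmat g, hmat g', h1, h2]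
  · rintro ⟨⟨A, B⟩, hAB⟩
    have hX := sp_of_pair n δ A B hAB
    have hu : IsUnit (fromBlocks A B (δ • B) A) :=
      (Matrix.isUnit_iff_isUnit_det _).mpr (SymplecticGroup.symplectic_det hX)
    refine ⟨⟨hu.unit, Subgroup.mem_inf.mpr ⟨?_, ?_⟩⟩, ?_⟩
    · exact (Cfsg.Agent.H17.mem_symplecticGroup_iff_form n _).mp hX
    · exact comm_of_blocks n δ A B
    · apply Subtype.ext
      simp

end Pairs

section GUSide

variable {F : Type u} [Field F] [Fintype F] {L : Type u} [Field L] [Fintype L]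

omit [Fintype F] [Fintype L] in
/-- Coordinates with respect to `1, ω` are unique. -/
theorem coord_inj (φ : F →+* L) (ω : L) (δ : F) (hδ : ¬ IsSquare δ) (hω : ω ^ 2 = φ δ)
    (a b a' b' : F) (h : φ a + φ b * ω = φ a' + φ b' * ω) : a = a' ∧ b = b' := by
  have hb : b = b' := by
    by_contra hne
    have hne' : φ (b - b') ≠ 0 := by
      rw [ne_eq, map_eq_zero]
      exact sub_ne_zero.mpr hne
    have h1 : ω * φ (b - b') = φ (a' - a) := by
      rw [map_sub, map_sub]
      linear_combination h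
    have h2 : ω = φ ((a' - a) / (b - b')) := by
      rw [map_div₀]
      exact eq_div_of_mul_eq hne' h1
    apply hδ
    refine ⟨(a' - a) / (b - b'), ?_⟩
    apply φ.injective
    rw [← hω, map_mul, ← h2, sq]
  subst hb
  exact ⟨φ.injective (add_right_cancel h), rfl⟩

/-- Every element of `L` has coordinates with respect to `1, ω`. -/
theorem coord_surj (φ : F →+* L) (ω : L) (δ : F) (hδ : ¬ IsSquare δ) (hω : ω ^ 2 = φ δ)
    (hL : Fintype.card L = Fintype.card F ^ 2) (z : L) : ∃ a b : F, z = φ a + φ b * ω := by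
  have hinj : Function.Injective (fun ab : F × F => φ ab.1 + φ ab.2 * ω) := by
    rintro ⟨a, b⟩ ⟨a', b'⟩ h
    obtain ⟨h1, h2⟩ := coord_inj φ ω δ hδ hω a b a' b' h
    rw [h1, h2]
  have hbij := (Fintype.bijective_iff_injective_and_card _).mpr
    ⟨hinj, by rw [Fintype.card_prod, hL, sq]⟩
  obtain ⟨⟨a, b⟩, hab⟩ := hbij.2 z
  exact ⟨a, b, hab.symm⟩

/-- The `q`-th power map is the conjugation `ω ↦ -ω`. -/
theorem coord_conj (φ : F →+* L) (ω : L) (δ : F) (hodd : Odd (Fintype.card F))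
    (hδ : ¬ IsSquare δ) (hω : ω ^ 2 = φ δ) (hL : Fintype.card L = Fintype.card F ^ 2)
    (a b : F) : (φ a + φ b * ω) ^ Fintype.card F = φ a - φ b * ω := by
  have hchar : ringChar F ≠ 2 := by
    intro h
    have h1 := FiniteField.even_card_iff_char_two.mp h
    obtain ⟨k, hk⟩ := hodd
    omega
  have hδ0 : δ ≠ 0 := by
    rintro rfl
    exact hδ ⟨0, by rw [mul_zero]⟩
  have hpow : δ ^ (Fintype.card F / 2) = -1 := by
    rcases FiniteField.pow_dichotomy hchar hδ0 with h | h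
    · exact absurd ((FiniteField.isSquare_iff hchar hδ0).mpr h) hδ
    · exact h
  have hωq : ω ^ Fintype.card F = -ω := by
    obtain ⟨k, hk⟩ := hodd
    have hk2 : Fintype.card F / 2 = k := by omega
    rw [hk2] at hpow
    rw [hk, pow_succ, pow_mul, hω, ← map_pow, hpow, map_neg, map_one, neg_one_mul]
  rw [add_pow_q hL, mul_pow, ← map_pow, ← map_pow, FiniteField.pow_card, FiniteField.pow_card,
    hωq]
  ring

/-- The matrix `Mᵀ M^(q)` for `M = A + ω B`. -/
theorem herm_blocks (φ : F →+* L) (ω : L) (δ : F) (hodd : Odd (Fintype.card F))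
    (hδ : ¬ IsSquare δ) (hω : ω ^ 2 = φ δ) (hL : Fintype.card L = Fintype.card F ^ 2) (n : ℕ)
    (A B : Matrix (Fin n) (Fin n) F) :
    (A.map φ + ω • B.map φ)ᵀ * (A.map φ + ω • B.map φ).map (fun x => x ^ Fintype.card F) =
      (Aᵀ * A - δ • (Bᵀ * B)).map φ + ω • (Bᵀ * A - Aᵀ * B).map φ := by
  have hconj : (A.map φ + ω • B.map φ).map (fun x => x ^ Fintype.card F) =
      A.map φ - ω • B.map φ := by
    ext i j
    simp only [Matrix.map_apply, Matrix.add_apply, Matrix.smul_apply, Matrix.sub_apply,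
      smul_eq_mul]
    rw [mul_comm ω, coord_conj φ ω δ hodd hδ hω hL]
  have e1 : (Aᵀ * A - δ • (Bᵀ * B)).map φ =
      Aᵀ.map φ * A.map φ - φ δ • (Bᵀ.map φ * B.map φ) := by
    rw [Matrix.map_sub _ (map_sub φ), Matrix.map_mul, Matrix.map_smul' _ _ _ (map_mul φ),
      Matrix.map_mul]
  have e2 : (Bᵀ * A - Aᵀ * B).map φ = Bᵀ.map φ * A.map φ - Aᵀ.map φ * B.map φ := by
    rw [Matrix.map_sub _ (map_sub φ), Matrix.map_mul, Matrix.map_mul]
  have hω' : ω * ω = φ δ := by rw [← sq]; exact hω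
  rw [hconj, e1, e2, transpose_add, transpose_smul, transpose_map, transpose_map]
  simp only [add_mul, mul_sub, smul_mul_assoc, mul_smul_comm]
  rw [← hω']
  module

omit [Field F] in
/-- A matrix with `Mᵀ M^(q) = 1` preserves the Hermitian form. -/
theorem preserves_of_transpose_mul_map (hL : Fintype.card L = Fintype.card F ^ 2) (n : ℕ)
    (M : Matrix (Fin n) (Fin n) L)
    (h : Mᵀ * M.map (fun x => x ^ Fintype.card F) = 1) (u v : Fin n → L) :
    hermI (Fin n) L (Fintype.card F) (M *ᵥ u) (M *ᵥ v) =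
      hermI (Fin n) L (Fintype.card F) u v := by
  have key : (fun i => (M *ᵥ v) i ^ Fintype.card F) =
      M.map (fun x => x ^ Fintype.card F) *ᵥ (fun i => v i ^ Fintype.card F) := by
    funext i
    simp only [Matrix.mulVec, dotProduct, Matrix.map_apply]
    rw [sum_pow_q hL]
    exact Finset.sum_congr rfl (fun j _ => mul_pow _ _ _)
  have h1 : hermI (Fin n) L (Fintype.card F) (M *ᵥ u) (M *ᵥ v) =
      (M *ᵥ u) ⬝ᵥ (fun i => (M *ᵥ v) i ^ Fintype.card F) := rfl
  have h2 : hermI (Fin n) L (Fintype.card F) u v = u ⬝ᵥ (fun i => v i ^ Fintype.card F) := rfl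
  rw [h1, h2, key, ← Matrix.vecMul_transpose, ← Matrix.dotProduct_mulVec, Matrix.mulVec_mulVec,
    h, Matrix.one_mulVec]

/-- The unitary group is in bijection with the pairs. -/
theorem card_gu (φ : F →+* L) (ω : L) (δ : F) (hodd : Odd (Fintype.card F))
    (hδ : ¬ IsSquare δ) (hω : ω ^ 2 = φ δ) (hL : Fintype.card L = Fintype.card F ^ 2) (n : ℕ) :
    Nat.card ↥(Cfsg.GU n L (Fintype.card F)) = Nat.card ↥(PairSet n δ) := by
  have hq : Fintype.card F ≠ 0 := Fintype.card_ne_zero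
  choose ca cb hcab using coord_surj φ ω δ hδ hω hL
  have hdec : ∀ M : Matrix (Fin n) (Fin n) L,
      M = (M.map ca).map φ + ω • (M.map cb).map φ := by
    intro M
    ext i j
    simp only [Matrix.add_apply, Matrix.map_apply, Matrix.smul_apply, smul_eq_mul]
    rw [mul_comm ω]
    exact hcab (M i j)
  have huniq : ∀ A B A' B' : Matrix (Fin n) (Fin n) F,
      A.map φ + ω • B.map φ = A'.map φ + ω • B'.map φ → A = A' ∧ B = B' := by
    intro A B A' B' h
    have h1 : ∀ i j, φ (A i j) + φ (B i j) * ω = φ (A' i j) + φ (B' i j) * ω := by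
      intro i j
      have h2 := congrFun (congrFun h i) j
      simp only [Matrix.add_apply, Matrix.map_apply, Matrix.smul_apply, smul_eq_mul] at h2
      rw [mul_comm ω, mul_comm ω] at h2
      exact h2
    constructor
    · ext i j
      exact (coord_inj φ ω δ hδ hω _ _ _ _ (h1 i j)).1
    · ext i j
      exact (coord_inj φ ω δ hδ hω _ _ _ _ (h1 i j)).2
  -- unitary ⇒ pair
  have hpair : ∀ A B : Matrix (Fin n) (Fin n) F,
      (A.map φ + ω • B.map φ)ᵀ *
        (A.map φ + ω • B.map φ).map (fun x => x ^ Fintype.card F) = 1 →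
      (A, B) ∈ PairSet n δ := by
    intro A B h
    rw [herm_blocks φ ω δ hodd hδ hω hL] at h
    have h1 : (1 : Matrix (Fin n) (Fin n) L) =
        (1 : Matrix (Fin n) (Fin n) F).map φ + ω • (0 : Matrix (Fin n) (Fin n) F).map φ := by
      rw [Matrix.map_one _ (map_zero φ) (map_one φ), Matrix.map_zero _ (map_zero φ), smul_zero,
        add_zero]
    rw [h1] at h
    obtain ⟨h2, h3⟩ := huniq _ _ _ _ h
    exact ⟨(sub_eq_zero.mp h3).symm, h2⟩
  -- pair ⇒ unitary
  have hherm : ∀ A B : Matrix (Fin n) (Fin n) F, (A, B) ∈ PairSet n δ →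
      (A.map φ + ω • B.map φ)ᵀ *
        (A.map φ + ω • B.map φ).map (fun x => x ^ Fintype.card F) = 1 := by
    intro A B h
    obtain ⟨h1, h2⟩ := h
    simp only at h1 h2
    rw [herm_blocks φ ω δ hodd hδ hω hL, h2, h1, sub_self,
      Matrix.map_one _ (map_zero φ) (map_one φ), Matrix.map_zero _ (map_zero φ), smul_zero,
      add_zero]
  have hmem : ∀ g : ↥(Cfsg.GU n L (Fintype.card F)),
      ((g.1 : Matrix (Fin n) (Fin n) L).map ca, (g.1 : Matrix (Fin n) (Fin n) L).map cb) ∈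
        PairSet n δ := by
    intro g
    apply hpair
    rw [← hdec]
    exact GUI_transpose_mul_map hq g.1 g.2
  refine Nat.card_congr (Equiv.ofBijective
    (fun g => (⟨_, hmem g⟩ : ↥(PairSet n δ))) ⟨?_, ?_⟩)
  · intro g g' h
    have h1 := congrArg (fun x : ↥(PairSet n δ) => x.1.1) h
    have h2 := congrArg (fun x : ↥(PairSet n δ) => x.1.2) h
    simp only at h1 h2
    apply Subtype.ext
    apply Units.ext
    rw [hdec (g.1 : Matrix (Fin n) (Fin n) L), hdec (g'.1 : Matrix (Fin n) (Fin n) L), h1, h2]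
  · rintro ⟨⟨A, B⟩, hAB⟩
    obtain ⟨g, hg1, hg2⟩ := exists_GUI_of_preserves (Fintype.card F) hq
      (A.map φ + ω • B.map φ)
      (preserves_of_transpose_mul_map hL n _ (hherm A B hAB))
    refine ⟨⟨g, hg2⟩, ?_⟩
    apply Subtype.ext
    have h3 := hdec (g.1 : Matrix (Fin n) (Fin n) L)
    rw [hg1] at h3
    obtain ⟨h4, h5⟩ := huniq _ _ _ _ h3
    show (((g : GL (Fin n) L) : Matrix (Fin n) (Fin n) L).map ca,
      ((g : GL (Fin n) L) : Matrix (Fin n) (Fin n) L).map cb) = (A, B)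
    rw [hg1, ← h4, ← h5]

end GUSide

theorem cardIso : StCardIso.{u} := by
  intro F _ _ L _ _ φ ω n δ hodd hδ hL hω
  rw [card_sp_cent n δ, card_gu φ ω δ hodd hδ hω hL n]

example : Cfsg.Agent.H98.Gu.StCardIso.{u} := cardIso

end Cfsg.Agent.H7.Gu
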