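import Mathlib
import Cfsg.Agent.H64.JzDefs
import Cfsg.Agent.S2950
import Cfsg.Agent.Helper55.UqBase
import Cfsg.Agent.Helper55.ThJ
import Cfsg.Agent.H7.JyNotin

/-!
# S2953 / KILL2 interface: normalizers of 2-groups normalized by `K` and `T` lie in `L`

For a configuration `Base S M T K L`: if `U ≠ 1` is a 2-subgroup normalized by `K` and `J(T)`
then `N_G(U) ≤ L` (`N_G(U)` is a 2-local over `K ⊔ J(T)`, S2950 uniqueness), and hence
`N_S(U) ≤ S ∩ L = T`.
-/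

set_option autoImplicit false
open Cfsg

namespace Cfsg.Agent.H7.JyHU

universe u

variable {G : Type u} [Group G]

/-- `N_G(U) ≤ L` for a nontrivial 2-group `U` normalized by `K` and `J(T)`. -/
theorem normalizer_le_L [Finite G] (S : Sylow 2 G) (M T K L : Subgroup G)
    (hB : Cfsg.Agent.H64.Jz.Base S M T K L) (U : Subgroup G) (hU1 : U ≠ ⊥)
    (hU2 : IsPGroup 2 ↥U) (hK : K ≤ Subgroup.normalizer (U : Set G))
    (hJ : thompsonSubgroupOf 2 T ≤ Subgroup.normalizer (U : Set G)) :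
    Subgroup.normalizer (U : Set G) ≤ L := by
  obtain ⟨⟨hL, hN, hZ⟩, hO, hM, hMJ, hT, hTS, hK', hLmax, hKL⟩ := hB
  obtain ⟨L0, hL0max, hKL0, huniq0, -, hsyl0⟩ :=
    Cfsg.Agent.S2950.result hL hN hZ hO S M hM hMJ T hT K hK'
  have hLL0 : L = L0 := huniq0 L hLmax hKL
  have hX : IsTwoLocal (Subgroup.normalizer (U : Set G)) := ⟨U, hU2, hU1, rfl⟩
  obtain ⟨L', hL'max, hXL'⟩ := Cfsg.Agent.Helper55.Uq.exists_maximalTwoLocal hX
  have h1 : K ⊔ thompsonSubgroupOf 2 T ≤ L' := (sup_le hK hJ).trans hXL'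
  have h2 : L' = L := (huniq0 L' hL'max h1).trans hLL0.symm
  rw [← h2]; exact hXL'

/-- the hypothesis `hU` of the abstract kill cores: `N_S(U) ≤ T` for `1 ≠ U ≤ T` normalized by
`K` and `T`. -/
theorem hU [Finite G] (S : Sylow 2 G) (M T K L : Subgroup G)
    (hB : Cfsg.Agent.H64.Jz.Base S M T K L) :
    ∀ U : Subgroup G, U ≠ ⊥ → U ≤ T → K ≤ Subgroup.normalizer (U : Set G) →
      T ≤ Subgroup.normalizer (U : Set G) →
      ∀ y ∈ (S : Subgroup G), y ∈ Subgroup.normalizer (U : Set G) → y ∈ T := by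
  intro U hU1 hUT hK hT y hyS hyN
  have hT2 : IsPGroup 2 ↥T := hB.2.2.2.2.1.1.1
  have h1 : Subgroup.normalizer (U : Set G) ≤ L :=
    normalizer_le_L S M T K L hB U hU1 (hT2.to_le hUT) hK
      ((Cfsg.Agent.Helper55.ThJ.J_le T).trans hT)
  have h2 : (S : Subgroup G) ⊓ L = T := Cfsg.Agent.H7.JyNotin.inf_eq S M T K L hB
  rw [← h2]
  exact Subgroup.mem_inf.mpr ⟨hyS, h1 hyN⟩

/-- variant: no element of `S ∖ T` normalizes a nontrivial 2-group normalized by `K` and `T`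
(not necessarily inside `T`). -/
theorem hU' [Finite G] (S : Sylow 2 G) (M T K L : Subgroup G)
    (hB : Cfsg.Agent.H64.Jz.Base S M T K L) :
    ∀ U : Subgroup G, U ≠ ⊥ → IsPGroup 2 ↥U → K ≤ Subgroup.normalizer (U : Set G) →
      T ≤ Subgroup.normalizer (U : Set G) →
      ∀ y ∈ (S : Subgroup G), y ∈ Subgroup.normalizer (U : Set G) → y ∈ T := by
  intro U hU1 hU2 hK hT y hyS hyN
  have h1 : Subgroup.normalizer (U : Set G) ≤ L :=
    normalizer_le_L S M T K L hB U hU1 hU2 hK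
      ((Cfsg.Agent.Helper55.ThJ.J_le T).trans hT)
  have h2 : (S : Subgroup G) ⊓ L = T := Cfsg.Agent.H7.JyNotin.inf_eq S M T K L hB
  rw [← h2]
  exact Subgroup.mem_inf.mpr ⟨hyS, h1 hyN⟩

end Cfsg.Agent.H7.JyHU
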