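import Mathlib
import Cfsg.Agent.H64.JzDefs
import Cfsg.Agent.S2951
import Cfsg.Agent.H14.Thompson

/-!
# JY-NJ (S2953, piece Y5): for `T = S`, `N_G(J(S)) ≤ N_G(S)`

In the situation `Base S M S K L` every clause of S2951 gives `Ω₁Z(S) = Ω₁Z(J(S))`; so `N_G(J(S))`
normalizes `Z := Ω₁Z(S)`, every conjugate `S^n` (`n ∈ N_G(J(S))`) centralizes `Z`, hence lies in
`C_G(Z) ≤ N_G(S)` and therefore in `S`.
-/

set_option autoImplicit false
open Cfsg

namespace Cfsg.Agent.H7.JyNJ

universe u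

variable {G : Type u} [Group G]

/-- `Ω₁(Z(X)) ≤ X ∩ C_G(X)` -/
theorem omega_le' (X : Subgroup G) :
    omegaCenterOf X ≤ X ⊓ Subgroup.centralizer (X : Set G) := by
  unfold omegaCenterOf omegaOne
  rw [Subgroup.closure_le]
  intro x hx
  exact hx.1

/-- `N_G(X) ≤ N_G(Ω₁(Z(X)))` -/
theorem normalizer_le_omega' (X : Subgroup G) :
    Subgroup.normalizer (X : Set G) ≤ Subgroup.normalizer (omegaCenterOf X : Set G) := by
  intro g hg
  rw [Subgroup.mem_normalizer_iff_map_conj_eq] at hg ⊢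
  have h1 := Cfsg.Agent.H14.omegaOne_center_conj 2 g X
  have hg' : X.map (MulAut.conj g).toMonoidHom = X := hg
  rw [hg'] at h1
  exact h1

/-- abstract core: if `m` normalizes `Z := Ω₁Z(S)` and `C_G(Z) ≤ N_G(S)` then `m S m⁻¹ ≤ S`. -/
theorem conj_mem_of_normalizes_omega [Finite G] (S : Sylow 2 G)
    (hZ : Subgroup.centralizer (omegaCenterOf (S : Subgroup G) : Set G) ≤
      Subgroup.normalizer ((S : Subgroup G) : Set G))
    (m : G) (hm : m ∈ Subgroup.normalizer (omegaCenterOf (S : Subgroup G) : Set G))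
    (s : G) (hs : s ∈ (S : Subgroup G)) : m * s * m⁻¹ ∈ (S : Subgroup G) := by
  have : Fact (Nat.Prime 2) := ⟨Nat.prime_two⟩
  -- the conjugate `S^m` as a subgroup
  have hP : IsPGroup 2 ↥((S : Subgroup G).map (MulAut.conj m).toMonoidHom) :=
    S.isPGroup'.map _
  have hle : (S : Subgroup G).map (MulAut.conj m).toMonoidHom ≤
      Subgroup.normalizer ((S : Subgroup G) : Set G) := by
    rintro _ ⟨t, ht, rfl⟩
    apply hZ
    rw [Subgroup.mem_centralizer_iff]
    intro z hz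
    -- z' = m⁻¹ z m ∈ Z
    have hz' : m⁻¹ * z * m ∈ omegaCenterOf (S : Subgroup G) := by
      have h := (Subgroup.mem_normalizer_iff.mp hm (m⁻¹ * z * m)).mpr
      apply h
      have : m * (m⁻¹ * z * m) * m⁻¹ = z := by group
      rw [this]; exact hz
    have hc : t * (m⁻¹ * z * m) = (m⁻¹ * z * m) * t :=
      Subgroup.mem_centralizer_iff.mp (Subgroup.mem_inf.mp (omega_le' _ hz')).2 t ht
    show z * (m * t * m⁻¹) = (m * t * m⁻¹) * z
    calc z * (m * t * m⁻¹) = m * ((m⁻¹ * z * m) * t) * m⁻¹ := by group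
      _ = m * (t * (m⁻¹ * z * m)) * m⁻¹ := by rw [hc]
      _ = (m * t * m⁻¹) * z := by group
  have h2 : (S : Subgroup G).map (MulAut.conj m).toMonoidHom ⊓
      Subgroup.normalizer ((S : Subgroup G) : Set G) =
      (S : Subgroup G).map (MulAut.conj m).toMonoidHom ⊓ (S : Subgroup G) :=
    hP.inf_normalizer_sylow S
  have h3 : (S : Subgroup G).map (MulAut.conj m).toMonoidHom ≤ (S : Subgroup G) := by
    have h4 : (S : Subgroup G).map (MulAut.conj m).toMonoidHom ⊓
        Subgroup.normalizer ((S : Subgroup G) : Set G) =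
        (S : Subgroup G).map (MulAut.conj m).toMonoidHom := inf_eq_left.mpr hle
    rw [h4] at h2
    exact inf_eq_left.mp h2.symm
  exact h3 ⟨s, hs, rfl⟩

/-- JY-NJ: `Base S M S K L` ⟹ `N_G(J(S)) ≤ N_G(S)`. -/
theorem nj [Finite G] (S : Sylow 2 G) (M K L : Subgroup G)
    (hB : Cfsg.Agent.H64.Jz.Base S M (S : Subgroup G) K L) :
    Subgroup.normalizer (thompsonSubgroupOf 2 (S : Subgroup G) : Set G) ≤
      Subgroup.normalizer ((S : Subgroup G) : Set G) := by
  obtain ⟨⟨hL, hN, hZ⟩, hO, hM, hMJ, hT, hTS, hK, hLmax, hKL⟩ := hB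
  have h51 := Cfsg.Agent.S2951.result hL hN hZ hO S M hM hMJ (S : Subgroup G) hT le_rfl K hK
    L hLmax hKL _ _ rfl rfl
  have hZeq : omegaCenterOf (S : Subgroup G) =
      omegaCenterOf (thompsonSubgroupOf 2 (S : Subgroup G)) := by
    rcases h51.2 with h | h | h
    · exact h.1
    · exact h.1
    · exact h.1
  have key : ∀ m ∈ Subgroup.normalizer (thompsonSubgroupOf 2 (S : Subgroup G) : Set G),
      ∀ s ∈ (S : Subgroup G), m * s * m⁻¹ ∈ (S : Subgroup G) := by
    intro m hm s hs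
    apply conj_mem_of_normalizes_omega S (hZ S) m _ s hs
    rw [hZeq]
    exact normalizer_le_omega' _ hm
  intro n hn
  rw [Subgroup.mem_normalizer_iff]
  intro h
  constructor
  · intro hh
    exact key n hn h hh
  · intro hh
    have h1 := key n⁻¹ (inv_mem hn) _ hh
    have h2 : n⁻¹ * (n * h * n⁻¹) * n⁻¹⁻¹ = h := by group
    rw [h2] at h1
    exact h1

end Cfsg.Agent.H7.JyNJ

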