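import Mathlib
import Cfsg.Agent.H64.JyDefs
import Cfsg.Agent.H48.JyV
import Cfsg.Agent.H29.R1Out
import Cfsg.Agent.H51.Local
import Cfsg.Agent.Helper55.J48
import Cfsg.Agent.Helper55.UqBase
import Cfsg.Agent.H7.JyNotin
import Cfsg.Agent.H7.JyHU
import Cfsg.Agent.H7.JyNJ

/-!
# S2953 / KILL2, case `V ⊄ Q₁` (KB-NORM): the G-level glue onto the abstract core `r1_out_core`

`V := Ω₁Z(O₂(L))`, `Q₁ := O₂(K' ⊔ T')`.  In the residual situation `RCtx2 S M K L T' K' L'`, if
`V ⊄ Q₁` then every `x ∈ N_S(T')` normalizes `Q₁`.  The three facts about `P' = K' ⊔ T'` that are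
not proved here (`Q₁ ≤ T'`, `|T' : Q₁| ≤ 2`, `T' ∖ Q₁` inverts `K'` modulo `Q₁`) are hypotheses.
-/

set_option autoImplicit false
open Cfsg

namespace Cfsg.Agent.H7.JyKb

universe u

variable {G : Type u} [Group G]

/-- the elements of a group of order 4 containing `z`, `v` -/
theorem four_elems (V : Subgroup G) (hV4 : Nat.card ↥V = 4) (z v : G) (hz : z ∈ V) (hv : v ∈ V)
    (hz1 : z ≠ 1) (hv1 : v ≠ 1) (hvz : v ≠ z) (hz2 : z * z = 1) :
    ∀ w ∈ V, w = 1 ∨ w = z ∨ w = v ∨ w = v * z := by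
  classical
  intro w hw
  have hfin : Finite ↥V := Nat.finite_of_card_ne_zero (by omega)
  have : Fintype ↥V := Fintype.ofFinite ↥V
  have h1 : (⟨z, hz⟩ : ↥V) ≠ 1 := fun h => hz1 (congrArg Subtype.val h)
  have h2 : (⟨v, hv⟩ : ↥V) ≠ 1 := fun h => hv1 (congrArg Subtype.val h)
  have h3 : (⟨v, hv⟩ : ↥V) ≠ ⟨z, hz⟩ := fun h => hvz (congrArg Subtype.val h)
  have h4 : (⟨v * z, mul_mem hv hz⟩ : ↥V) ≠ 1 := by
    intro h
    have h' : v * z = 1 := congrArg Subtype.val h
    apply hvz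
    calc v = v * (z * z) := by rw [hz2, mul_one]
      _ = (v * z) * z := by group
      _ = z := by rw [h', one_mul]
  have h5 : (⟨v * z, mul_mem hv hz⟩ : ↥V) ≠ ⟨z, hz⟩ := by
    intro h
    have h' : v * z = z := congrArg Subtype.val h
    apply hv1
    calc v = (v * z) * z⁻¹ := by group
      _ = 1 := by rw [h']; group
  have h6 : (⟨v * z, mul_mem hv hz⟩ : ↥V) ≠ ⟨v, hv⟩ := by
    intro h
    have h' : v * z = v := congrArg Subtype.val h
    apply hz1
    calc z = v⁻¹ * (v * z) := by group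
      _ = 1 := by rw [h']; group
  have e1 : (1 : ↥V) ∉ ({⟨z, hz⟩, ⟨v, hv⟩, ⟨v * z, mul_mem hv hz⟩} : Finset ↥V) := by
    simp only [Finset.mem_insert, Finset.mem_singleton, not_or]
    exact ⟨fun h => h1 h.symm, fun h => h2 h.symm, fun h => h4 h.symm⟩
  have e2 : (⟨z, hz⟩ : ↥V) ∉ ({⟨v, hv⟩, ⟨v * z, mul_mem hv hz⟩} : Finset ↥V) := by
    simp only [Finset.mem_insert, Finset.mem_singleton, not_or]
    exact ⟨fun h => h3 h.symm, fun h => h5 h.symm⟩
  have e3 : (⟨v, hv⟩ : ↥V) ∉ ({⟨v * z, mul_mem hv hz⟩} : Finset ↥V) := by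
    simp only [Finset.mem_singleton]
    exact fun h => h6 h.symm
  have hs : (insert (1 : ↥V) (insert (⟨z, hz⟩ : ↥V) (insert (⟨v, hv⟩ : ↥V)
      ({⟨v * z, mul_mem hv hz⟩} : Finset ↥V)))).card = 4 := by
    rw [Finset.card_insert_of_notMem e1, Finset.card_insert_of_notMem e2,
      Finset.card_insert_of_notMem e3, Finset.card_singleton]
  have hu := Finset.eq_univ_of_card _ (by rw [hs, ← Nat.card_eq_fintype_card, hV4])
  have hw' : (⟨w, hw⟩ : ↥V) ∈ (insert (1 : ↥V) (insert (⟨z, hz⟩ : ↥V) (insert (⟨v, hv⟩ : ↥V)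
      ({⟨v * z, mul_mem hv hz⟩} : Finset ↥V)))) := by
    rw [hu]; exact Finset.mem_univ _
  simp only [Finset.mem_insert, Finset.mem_singleton] at hw'
  rcases hw' with h | h | h | h
  · exact Or.inl (congrArg Subtype.val h)
  · exact Or.inr (Or.inl (congrArg Subtype.val h))
  · exact Or.inr (Or.inr (Or.inl (congrArg Subtype.val h)))
  · exact Or.inr (Or.inr (Or.inr (congrArg Subtype.val h)))

/-- an element normalizing the four-group `V` and centralizing `z` maps `v` to `v` or `v z` -/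
theorem conj_four (V : Subgroup G) (hV4 : Nat.card ↥V = 4) (z v s : G) (hz : z ∈ V) (hv : v ∈ V)
    (hz1 : z ≠ 1) (hv1 : v ≠ 1) (hvz : v ≠ z) (hz2 : z * z = 1)
    (hs : s ∈ Subgroup.normalizer (V : Set G)) (hsz : s * z = z * s) :
    s * v * s⁻¹ = v ∨ s * v * s⁻¹ = v * z := by
  have hmem : s * v * s⁻¹ ∈ V := (Subgroup.mem_normalizer_iff.mp hs v).mp hv
  rcases four_elems V hV4 z v hz hv hz1 hv1 hvz hz2 _ hmem with h | h | h | h
  · exfalso; apply hv1
    calc v = s⁻¹ * (s * v * s⁻¹) * s := by group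
      _ = 1 := by rw [h]; group
  · exfalso; apply hvz
    calc v = s⁻¹ * (s * v * s⁻¹) * s := by group
      _ = s⁻¹ * z * s := by rw [h]
      _ = s⁻¹ * (z * s) := by group
      _ = s⁻¹ * (s * z) := by rw [hsz]
      _ = z := by group
  · exact Or.inl h
  · exact Or.inr h

/-- KB-NORM from the facts about `P' = K' ⊔ T'`. -/
theorem kbNorm_of [Finite G] (S : Sylow 2 G) (M K L T' K' L' : Subgroup G)
    (hR : Cfsg.Agent.H64.Jy.RCtx2 S M K L T' K' L')
    (pDT : pCoreOf 2 (K' ⊔ T') ≤ T')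
    (pDidx : ∀ a ∈ T', ∀ b ∈ T', a ∉ pCoreOf 2 (K' ⊔ T') → b ∉ pCoreOf 2 (K' ⊔ T') →
      a * b ∈ pCoreOf 2 (K' ⊔ T'))
    (pInv : ∀ x ∈ T', x ∉ pCoreOf 2 (K' ⊔ T') → ∀ g ∈ K',
      x * g * x⁻¹ * g ∈ pCoreOf 2 (K' ⊔ T'))
    (hV : ¬ omegaCenterOf (pCoreOf 2 L) ≤ pCoreOf 2 (K' ⊔ T')) :
    ∀ x ∈ (S : Subgroup G), x ∈ Subgroup.normalizer (T' : Set G) →
      x ∈ Subgroup.normalizer (pCoreOf 2 (K' ⊔ T') : Set G) := by
  obtain ⟨hB, hNS, hB', hne⟩ := hR
  obtain ⟨hV4, hV2, hNV, ⟨z, hzV, hz1, hzZ, hzU, -, -⟩, hCu, -⟩ :=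
    Cfsg.Agent.H48.Jy.vfacts S M K L T' K' L' hB hNS hB' hne
  -- notation
  obtain ⟨V, hVdef⟩ : ∃ V : Subgroup G, V = omegaCenterOf (pCoreOf 2 L) := ⟨_, rfl⟩
  obtain ⟨Q, hQdef⟩ : ∃ Q : Subgroup G, Q = pCoreOf 2 (K' ⊔ T') := ⟨_, rfl⟩
  obtain ⟨U, hUdef⟩ : ∃ U : Subgroup G, U = pCoreOf 2 L' := ⟨_, rfl⟩
  rw [← hVdef] at hV4 hV2 hNV hzV hCu hV
  rw [← hQdef] at pDT pDidx pInv hV ⊢
  rw [← hUdef] at hzU
  have hSL : (S : Subgroup G) ≤ L := Subgroup.le_normalizer.trans hNS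
  have hT'S : T' ≤ (S : Subgroup G) := hB'.2.2.2.2.2.1
  have hK'L : ¬ K' ≤ L := hB'.2.2.2.2.2.2.1.2.1
  have hKJ' : IsJComponent T' K' := hB'.2.2.2.2.2.2.1.1.1
  have hKJL' : K' ⊔ thompsonSubgroupOf 2 T' ≤ L' := hB'.2.2.2.2.2.2.2.2
  have hsyl' : IsSylowTwoIn T' L' := Cfsg.Agent.H7.JyNotin.sylIn_of_base S L T' K' L' hB'
  have hsyl : IsSylowTwoIn (S : Subgroup G) L :=
    Cfsg.Agent.H7.JyNotin.sylIn_of_base S M (S : Subgroup G) K L hB
  have hz2 : z * z = 1 := hV2 z hzV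
  have hzc : ∀ s ∈ (S : Subgroup G), s * z = z * s := fun s hs =>
    Subgroup.mem_centralizer_iff.mp
      (Subgroup.mem_inf.mp (Cfsg.Agent.H7.JyNJ.omega_le' _ hzZ)).2 s hs
  have hVS : V ≤ (S : Subgroup G) := by
    intro v hv
    rw [hVdef] at hv
    exact Cfsg.Agent.Helper55.J48.pCoreOf_le_of_sylowIn hsyl
      (Subgroup.mem_inf.mp (Cfsg.Agent.H7.JyNJ.omega_le' _ hv)).1
  have hUT : U ≤ T' := by
    rw [hUdef]; exact Cfsg.Agent.Helper55.J48.pCoreOf_le_of_sylowIn hsyl'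
  have hU2 : IsPGroup 2 ↥U := by
    rw [hUdef]; exact Cfsg.Agent.Helper55.Uq.pCoreOf_isPGroup L'
  have hLU : L' ≤ Subgroup.normalizer (U : Set G) := by
    rw [hUdef]; exact Cfsg.Agent.Helper55.J48.le_normalizer_pCoreOf L'
  have hU1 : U ≠ ⊥ := by
    intro h
    rw [h] at hzU
    exact hz1 (Subgroup.mem_bot.mp hzU)
  have hNUL : Subgroup.normalizer (U : Set G) ≤ L' :=
    Cfsg.Agent.H7.JyHU.normalizer_le_L S L T' K' L' hB' U hU1 hU2
      ((le_sup_left.trans hKJL').trans hLU) ((le_sup_right.trans hKJL').trans hLU)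
  have hinf : (S : Subgroup G) ⊓ L' = T' := Cfsg.Agent.H7.JyNotin.inf_eq S L T' K' L' hB'
  -- the action of `S` on `V`
  have hSV : ∀ s ∈ (S : Subgroup G), ∀ v ∈ V, v ≠ 1 → v ≠ z →
      s * v * s⁻¹ = v ∨ s * v * s⁻¹ = v * z := by
    intro s hs v hv hv1 hvz
    apply conj_four V hV4 z v s hzV hv hz1 hv1 hvz hz2 _ (hzc s hs)
    rw [hNV]; exact hSL hs
  have hinvv : ∀ v ∈ V, v⁻¹ = v := fun v hv => inv_eq_of_mul_eq_one_left (hV2 v hv)
  -- `V ≤ T'`
  have hVT : V ≤ T' := by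
    intro v hv
    by_cases hv1 : v = 1
    · rw [hv1]; exact one_mem _
    by_cases hvz : v = z
    · rw [hvz]; exact hUT hzU
    have hfw : ∀ o ∈ U, v * o * v⁻¹ ∈ U := by
      intro o ho
      rcases hSV o (hT'S (hUT ho)) v hv hv1 hvz with h | h
      · have e : v * o * v⁻¹ = o := by
          calc v * o * v⁻¹ = (o * v * o⁻¹) * o * v⁻¹ := by rw [h]
            _ = o := by group
        rw [e]; exact ho
      · have e : v * o * v⁻¹ = z * o := by
          have h' : v * o = z * (o * v) := by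
            have h'' : o * v = v * z * o := by
              calc o * v = (o * v * o⁻¹) * o := by group
                _ = v * z * o := by rw [h]
            rw [h'']
            have hzv : z * v = v * z := (hzc v (hVS hv)).symm
            calc v * o = v * (z * z) * o := by rw [hz2, mul_one]
              _ = (v * z) * z * o := by group
              _ = (z * v) * z * o := by rw [hzv]
              _ = z * (v * z * o) := by group
          calc v * o * v⁻¹ = z * (o * v) * v⁻¹ := by rw [h']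
            _ = z * o := by group
        rw [e]; exact mul_mem hzU ho
    have hvN : v ∈ Subgroup.normalizer (U : Set G) := by
      rw [Subgroup.mem_normalizer_iff]
      intro h
      constructor
      · exact hfw h
      · intro hh
        have h1 := hfw _ hh
        have e : v * (v * h * v⁻¹) * v⁻¹ = h := by
          have hvv : v * v = 1 := hV2 v hv
          calc v * (v * h * v⁻¹) * v⁻¹ = (v * v) * h * (v * v)⁻¹ := by group
            _ = h := by rw [hvv]; group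
        rw [e] at h1
        exact h1
    rw [← hinf]
    exact Subgroup.mem_inf.mpr ⟨hVS hv, hNUL hvN⟩
  -- `z ∈ Q`
  have hPL : K' ⊔ T' ≤ L' := sup_le (le_sup_left.trans hKJL') hsyl'.1
  have hUQ : U ≤ Q := by
    rw [hQdef]
    exact Cfsg.Agent.H51.le_pCoreOf 2 (hUT.trans le_sup_right) (hPL.trans hLU) hU2
  have hzQ : z ∈ Q := hUQ hzU
  have hPQ : K' ⊔ T' ≤ Subgroup.normalizer (Q : Set G) := by
    rw [hQdef]; exact Cfsg.Agent.H51.le_normalizer_pCoreOf 2 (K' ⊔ T')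
  -- the element `v`
  obtain ⟨v, hvV, hvQ⟩ := SetLike.not_le_iff_exists.mp hV
  have hv1 : v ≠ 1 := fun h => hvQ (h ▸ one_mem _)
  have hvz : v ≠ z := fun h => hvQ (h ▸ hzQ)
  have hvT : v ∈ T' := hVT hvV
  have hvv : v * v = 1 := hV2 v hvV
  -- the element `k`
  have hO2 : IsPGroup 2 ↥(pCoreOf 2 K') := Cfsg.Agent.Helper55.Uq.pCoreOf_isPGroup K'
  have hpow3 : ∀ g ∈ K', g ^ 3 ∈ pCoreOf 2 K' := by
    intro g hg
    have hOK : pCoreOf 2 K' ≤ K' := Cfsg.Agent.H51.pCoreOf_le 2 K'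
    have hn : ((pCoreOf 2 K').subgroupOf K').Normal :=
      (Subgroup.normal_subgroupOf_iff_le_normalizer hOK).2
        (Cfsg.Agent.H51.le_normalizer_pCoreOf 2 K')
    have hidx : ((pCoreOf 2 K').subgroupOf K').index = 3 := hKJ'.2.2.1
    have h := Subgroup.pow_index_mem ((pCoreOf 2 K').subgroupOf K') (⟨g, hg⟩ : ↥K')
    rw [hidx] at h
    exact h
  obtain ⟨k, hkK, hk3, hkz⟩ : ∃ k ∈ K', k ^ 3 = 1 ∧ k * z * k⁻¹ ≠ z := by
    by_contra hcon
    apply hK'L
    have hle : K' ≤ Subgroup.centralizer ({z} : Set G) := by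
      conv_lhs => rw [← hKJ'.1]
      rw [Subgroup.closure_le]
      rintro g ⟨hgK, hgodd⟩
      have hg3 : g ^ 3 = 1 := by
        have hmem := hpow3 g hgK
        obtain ⟨n, hn⟩ := hO2 ⟨g ^ 3, hmem⟩
        have hn' : (g ^ 3) ^ (2 ^ n) = 1 := congrArg Subtype.val hn
        have hd1 : orderOf (g ^ 3) ∣ 2 ^ n := orderOf_dvd_of_pow_eq_one hn'
        have hd2 : orderOf (g ^ 3) ∣ orderOf g := orderOf_pow_dvd 3
        have hodd : Odd (orderOf (g ^ 3)) := hgodd.of_dvd_nat hd2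
        have hcop : Nat.Coprime (2 ^ n) (orderOf (g ^ 3)) := by
          apply Nat.Coprime.pow_left
          rw [Nat.Prime.coprime_iff_not_dvd Nat.prime_two]
          obtain ⟨j, hj⟩ := hodd
          omega
        have h1 : orderOf (g ^ 3) = 1 := Nat.Coprime.eq_one_of_dvd hcop.symm hd1
        exact orderOf_eq_one_iff.mp h1
      rw [SetLike.mem_coe, Subgroup.mem_centralizer_iff]
      intro h hh
      rw [Set.mem_singleton_iff] at hh
      rw [hh]
      by_contra hne'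
      apply hcon
      refine ⟨g, hgK, hg3, ?_⟩
      intro he
      apply hne'
      calc z * g = (g * z * g⁻¹) * g := by rw [he]
        _ = g * z := by group
    exact hle.trans (hCu z hzV hz1)
  -- the key statement
  have key : ∀ x ∈ (S : Subgroup G), x ∈ Subgroup.normalizer (T' : Set G) →
      ∀ q ∈ Q, x * q * x⁻¹ ∈ Q := by
    intro x hxS hxN
    apply Cfsg.Agent.H29.R1.r1_out_core T' Q z v k x pDT hvT
    · intro t ht
      by_cases h : t ∈ Q
      · exact Or.inl h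
      · exact Or.inr (pDidx t ht v hvT h hvQ)
    · exact hvv
    · exact hz2
    · exact hzQ
    · exact fun t ht => hzc t (hT'S ht)
    · intro q hq
      have hqS : q ∈ (S : Subgroup G) := hT'S (pDT hq)
      have hvinv : v⁻¹ = v := hinvv v hvV
      rcases hSV q hqS v hvV hv1 hvz with h | h
      · left
        calc v * q * v⁻¹ = (q * v * q⁻¹) * q * v⁻¹ := by rw [h]
          _ = q := by group
      · right
        have h'' : q * v = v * z * q := by
          calc q * v = (q * v * q⁻¹) * q := by group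
            _ = v * z * q := by rw [h]
        have hzq : q * z = z * q := hzc q hqS
        calc v * q * v⁻¹ = v * q * v := by rw [hvinv]
          _ = v * (q * v) := by group
          _ = v * (v * z * q) := by rw [h'']
          _ = (v * v) * (z * q) := by group
          _ = z * q := by rw [hvv, one_mul]
          _ = q * z := hzq.symm
    · exact hk3
    · exact hkz
    · intro q hq
      exact (Subgroup.mem_normalizer_iff.mp (hPQ (Subgroup.mem_sup_left hkK)) q).mp hq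
    · exact pInv v hvT hvQ k hkK
    · intro t ht
      exact (Subgroup.mem_normalizer_iff.mp hxN t).mp ht
    · exact hSV x hxS v hvV hv1 hvz
  intro x hxS hxN
  rw [Subgroup.mem_normalizer_iff]
  intro h
  constructor
  · exact key x hxS hxN h
  · intro hh
    have h1 := key x⁻¹ (inv_mem hxS) (inv_mem hxN) _ hh
    have e : x⁻¹ * (x * h * x⁻¹) * x⁻¹⁻¹ = h := by group
    rw [e] at h1
    exact h1

end Cfsg.Agent.H7.JyKb
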