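import Mathlib
import Cfsg.Agent.H64.JyDefs
import Cfsg.Agent.H7.JyNotin
import Cfsg.Agent.H7.JyNJ
import Cfsg.Agent.Helper55.ThJ

/-!
# S2953 (team project JY): the pieces JY-NOTIN, JY-NS, JY-NJ in the exact shape of `H64/JyDefs.lean`
-/

set_option autoImplicit false
open Cfsg

namespace Cfsg.Agent.H7.Jy

universe u

/-- `N_G(S) ≤ M` when `N_G(J(S)) ≤ M`. -/
theorem ns : Cfsg.Agent.H64.Jy.StNS.{u} := by
  intro G _ _ S M T K L hB
  obtain ⟨-, -, -, hMJ, -, -, -, -, -⟩ := hB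
  exact (Cfsg.Agent.Helper55.ThJ.normalizer_le (S : Subgroup G)).trans hMJ

/-- JY-NOTIN. -/
theorem notIn : Cfsg.Agent.H64.Jy.StNotIn.{u} := by
  intro G _ _ S M T K L hB hne
  obtain ⟨x, hxS, hxN, hxL⟩ := Cfsg.Agent.H7.JyNotin.notin S M T K L hB hne
  refine ⟨x, ?_, hxN, hxL⟩
  exact ns S M T K L hB (Subgroup.le_normalizer hxS)

/-- JY-NJ. -/
theorem nj : Cfsg.Agent.H64.Jy.StNJ.{u} := by
  intro G _ _ S M K L hB
  exact Cfsg.Agent.H7.JyNJ.nj S M K L hB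

example : Cfsg.Agent.H64.Jy.StNotIn.{u} := notIn
example : Cfsg.Agent.H64.Jy.StNS.{u} := ns
example : Cfsg.Agent.H64.Jy.StNJ.{u} := nj

end Cfsg.Agent.H7.Jy
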