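import Mathlib
import Cfsg.Agent.H64.JzDefs
import Cfsg.Agent.S2950
import Cfsg.Agent.H12.JzOut1
import Cfsg.Agent.H4.JzZ2of
import Cfsg.Agent.H39.JzLex
import Cfsg.Agent.Helper55.UqBase
import Cfsg.Agent.Helper55.JzMax
import Cfsg.Agent.H7.JzLtCore

/-!
# JZ-LT (S2951, case `T < S`): clause 1 or clause 3

Interface between the J(T)-component set-up (S2946 as a hypothesis, S2950) and the abstract core
`Cfsg.Agent.H7.JzLt.lt_core`.
-/

set_option autoImplicit false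
open Cfsg

namespace Cfsg.Agent.H7.JzLt

open Cfsg.Agent.Helper55

universe u

variable {G : Type u} [Group G]

/-- the elements of `Ω₁(Z(X))` square to `1` -/
theorem omega_sq (X : Subgroup G) : ∀ a ∈ omegaCenterOf X, a * a = 1 := by
  intro a ha
  have key : a ∈ X ⊓ Subgroup.centralizer (X : Set G) ∧ a * a = 1 := by
    unfold omegaCenterOf omegaOne at ha
    refine Subgroup.closure_induction
      (p := fun a _ => a ∈ X ⊓ Subgroup.centralizer (X : Set G) ∧ a * a = 1) ?_ ?_ ?_ ?_ ha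
    · rintro y ⟨hy, hy2⟩
      exact ⟨hy, by rw [← pow_two]; exact hy2⟩
    · exact ⟨one_mem _, by simp⟩
    · rintro y y' - - ⟨hy, hy2⟩ ⟨hy', hy2'⟩
      refine ⟨mul_mem hy hy', ?_⟩
      have hc : y * y' = y' * y :=
        Subgroup.mem_centralizer_iff.mp (Subgroup.mem_inf.mp hy').2 y (Subgroup.mem_inf.mp hy).1
      calc y * y' * (y * y') = y * (y' * y) * y' := by group
        _ = y * (y * y') * y' := by rw [hc]
        _ = (y * y) * (y' * y') := by group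
        _ = 1 := by rw [hy2, hy2', one_mul]
    · rintro y - ⟨hy, hy2⟩
      refine ⟨inv_mem hy, ?_⟩
      calc y⁻¹ * y⁻¹ = (y * y)⁻¹ := by group
        _ = 1 := by rw [hy2, inv_one]
  exact key.2

/-- `N_G(X) ≤ N_G(Ω₁(Z(X)))` -/
theorem normalizer_le_omega (X : Subgroup G) :
    Subgroup.normalizer (X : Set G) ≤ Subgroup.normalizer (omegaCenterOf X : Set G) := by
  intro g hg
  rw [Subgroup.mem_normalizer_iff_map_conj_eq] at hg ⊢
  have h1 := Cfsg.Agent.H14.omegaOne_center_conj 2 g X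
  have hg' : X.map (MulAut.conj g).toMonoidHom = X := hg
  rw [hg'] at h1
  exact h1

/-- a 2-subgroup of `L` is not larger than a Sylow 2-subgroup of `L` -/
theorem card_le_of_sylowIn [Finite G] {T L R : Subgroup G} (hsyl : IsSylowTwoIn T L)
    (hRL : R ≤ L) (hR : IsPGroup 2 ↥R) : Nat.card R ≤ Nat.card T := by
  have : Fact (Nat.Prime 2) := ⟨Nat.prime_two⟩
  obtain ⟨hTL, hT2, hodd⟩ := hsyl
  obtain ⟨n, hn⟩ := hR.exists_card_eq
  have h1 : Nat.card R ∣ Nat.card L := Subgroup.card_dvd_of_le hRL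
  have h2 : Nat.card T * T.relIndex L = Nat.card L := by
    have h := Subgroup.card_mul_index (T.subgroupOf L)
    rw [Nat.card_congr (Subgroup.subgroupOfEquivOfLe hTL).toEquiv] at h
    exact h
  rw [← h2, hn] at h1
  have hcop : Nat.Coprime (2 ^ n) (T.relIndex L) := by
    apply Nat.Coprime.pow_left
    rw [Nat.Prime.coprime_iff_not_dvd Nat.prime_two]
    obtain ⟨k, hk⟩ := hodd
    omega
  have h3 : 2 ^ n ∣ Nat.card T := hcop.dvd_of_dvd_mul_right h1
  rw [hn]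
  exact Nat.le_of_dvd Nat.card_pos h3

/-- JZ-LT, clash-free form: S2946 enters as the hypothesis `Cfsg.Agent.H4.Jz.St46` (the frozen
statement S2946 as a closed `Prop`; this file does not import `Cfsg.Agent.S2946`). -/
theorem lt_of (h46' : Cfsg.Agent.H4.Jz.St46.{u}) : Cfsg.Agent.H64.Jz.StLt.{u} := by
  intro G _ _ S M T K L hB hne
  obtain ⟨⟨hL, hN, hZ⟩, hO, hM, hMJ, hT, hTS, hK, hLmax, hKL⟩ := hB
  have hT2 : IsPGroup 2 ↥T := hT.1.1
  have hT1 : T ≠ ⊥ := hT.1.2.1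
  have hKJ : IsJComponent T K := hK.1.1
  have hKM : ¬ K ≤ M := hK.2.1
  obtain ⟨L0, hL0max, hKL0, huniq0, -, hsyl0⟩ :=
    Cfsg.Agent.S2950.result hL hN hZ hO S M hM hMJ T hT K hK
  have hLL0 : L = L0 := huniq0 L hLmax hKL
  have hsyl : IsSylowTwoIn T L := by rw [hLL0]; exact hsyl0
  have huniq : ∀ L' : Subgroup G, IsMaximalTwoLocal L' →
      K ⊔ thompsonSubgroupOf 2 T ≤ L' → L' = L :=
    fun L' h1 h2 => (huniq0 L' h1 h2).trans hLL0.symm
  unfold Cfsg.Agent.H64.Jz.Concl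
  obtain ⟨J, hJ⟩ : ∃ J : Subgroup G, J = thompsonSubgroupOf 2 T := ⟨_, rfl⟩
  obtain ⟨Z0, hZ0⟩ : ∃ Z0 : Subgroup G, Z0 = omegaCenterOf J := ⟨_, rfl⟩
  obtain ⟨Z1, hZ1⟩ : ∃ Z1 : Subgroup G, Z1 = Z0 ⊓ ((K ⊔ J) ⊓
      Subgroup.centralizer ((K : Set G) ⊔ (J : Set G))) := ⟨_, rfl⟩
  have h46 := h46' hL hN hZ T hT2 hT1 K hKJ Z0 (by rw [hZ0, hJ])
  rw [← hJ] at h46 huniq ⊢
  rw [← hZ1] at h46
  rw [← hZ0]
  have hJT : J ≤ T := by rw [hJ]; exact ThJ.J_le T
  have hZ0le : Z0 ≤ J ⊓ Subgroup.centralizer (J : Set G) := by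
    rw [hZ0]; exact Cfsg.Agent.H4.Jz.z2_omega_le J
  have hsq : ∀ a ∈ Z0, a * a = 1 := by rw [hZ0]; exact omega_sq J
  have hcomm : ∀ a ∈ Z0, ∀ b ∈ Z0, a * b = b * a := fun a ha b hb =>
    Subgroup.mem_centralizer_iff.mp (Subgroup.mem_inf.mp (hZ0le hb)).2 a
      (Subgroup.mem_inf.mp (hZ0le ha)).1
  have hZ1le : Z1 ≤ Z0 := by rw [hZ1]; exact inf_le_left
  have hZ1cen : ∀ y ∈ Z1, y ∈ Subgroup.centralizer ((K ⊔ J : Subgroup G) : Set G) := by
    intro y hy
    rw [hZ1] at hy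
    have h := (Subgroup.mem_inf.mp (Subgroup.mem_inf.mp hy).2).2
    rw [Cfsg.Agent.H4.Jz.z2_cent_union] at h
    exact h
  obtain ⟨w, hw0, hidx⟩ := idx_two Z0 Z1 (Z0 ⊓ wOf K) hsq hcomm h46.2 h46.1
  have hS2 : IsPGroup 2 ↥(S : Subgroup G) := S.isPGroup'
  have hZle := Cfsg.Agent.H4.Jz.z2_omega_le (S : Subgroup G)
  have hcenX : ∀ (y g : G), g * y = y * g →
      g ∈ Subgroup.normalizer ((Subgroup.zpowers y : Subgroup G) : Set G) := by
    intro y g hg
    apply Subgroup.centralizer_le_normalizer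
    rw [Subgroup.mem_centralizer_iff]
    intro h hh
    obtain ⟨k, rfl⟩ := Subgroup.mem_zpowers_iff.mp hh
    exact ((Commute.zpow_right (show Commute g y from hg) k).eq).symm
  have hUn : ∀ y ∈ Z1, y ≠ 1 →
      Subgroup.normalizer ((Subgroup.zpowers y : Subgroup G) : Set G) ≤ L := by
    intro y hy hy1
    have hX : IsTwoLocal (Subgroup.normalizer ((Subgroup.zpowers y : Subgroup G) : Set G)) := by
      refine ⟨Subgroup.zpowers y, ?_, ?_, rfl⟩
      · exact hT2.to_le (Subgroup.zpowers_le.mpr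
          (hJT (Subgroup.mem_inf.mp (hZ0le (hZ1le hy))).1))
      · intro h
        apply hy1
        have h' : y ∈ Subgroup.zpowers y := Subgroup.mem_zpowers y
        rw [h] at h'
        exact Subgroup.mem_bot.mp h'
    obtain ⟨L', hL'max, hXL'⟩ := Cfsg.Agent.Helper55.Uq.exists_maximalTwoLocal hX
    have hKJX : K ⊔ J ≤ L' := by
      intro g hg
      exact hXL' (hcenX y g (Subgroup.mem_centralizer_iff.mp (hZ1cen y hy) g hg))
    have hL'L : L' = L := huniq L' hL'max hKJX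
    rw [← hL'L]; exact hXL'
  have hU : ∀ y ∈ Z1, y ≠ 1 → Subgroup.centralizer {y} ≤ L := by
    intro y hy hy1 g hg
    apply hUn y hy hy1
    apply hcenX
    exact (Subgroup.mem_centralizer_iff.mp hg y (Set.mem_singleton y)).symm
  have hY : ∀ g : G, ∀ y ∈ Z1, y ≠ 1 → g * y * g⁻¹ ∈ Z1 → g ∈ L := by
    intro g y hy hy1 hgy
    apply Cfsg.Agent.H12.Jz.mem_of_map_conj_eq hLmax
    apply huniq _ (Cfsg.Agent.H12.Jz.isMaximalTwoLocal_conj g hLmax)
    intro k hk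
    have hc : k * (g * y * g⁻¹) = (g * y * g⁻¹) * k :=
      Subgroup.mem_centralizer_iff.mp (hZ1cen _ hgy) k hk
    have hmem : g⁻¹ * k * g ∈ L := by
      apply hU y hy hy1
      rw [Subgroup.mem_centralizer_iff]
      intro h hh
      rw [Set.mem_singleton_iff] at hh
      rw [hh]
      calc y * (g⁻¹ * k * g) = g⁻¹ * ((g * y * g⁻¹) * k) * g := by group
        _ = g⁻¹ * (k * (g * y * g⁻¹)) * g := by rw [hc]
        _ = g⁻¹ * k * g * y := by group
    refine ⟨g⁻¹ * k * g, hmem, ?_⟩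
    show g * (g⁻¹ * k * g) * g⁻¹ = k
    group
  have hcard : ∀ R : Subgroup G, R ≤ L → IsPGroup 2 ↥R → Nat.card R ≤ Nat.card T :=
    fun R h1 h2 => card_le_of_sylowIn hsyl h1 h2
  have hNoZ : ∀ g : G, ∀ y ∈ Z1, y ≠ 1 → g * y * g⁻¹ ∉ omegaCenterOf (S : Subgroup G) := by
    intro g y hy hy1 hz
    apply hne
    apply Subgroup.eq_of_le_of_card_ge hTS
    rw [← Cfsg.Agent.Helper55.JzMax.card_map_conj (S : Subgroup G) g⁻¹]
    apply hcard _ _ (hS2.map _)
    rintro _ ⟨s, hs, rfl⟩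
    apply hU y hy hy1
    rw [Subgroup.mem_centralizer_iff]
    intro h hh
    rw [Set.mem_singleton_iff] at hh
    rw [hh]
    have hc : s * (g * y * g⁻¹) = (g * y * g⁻¹) * s :=
      Subgroup.mem_centralizer_iff.mp (Subgroup.mem_inf.mp (hZle hz)).2 s hs
    show y * (g⁻¹ * s * g⁻¹⁻¹) = (g⁻¹ * s * g⁻¹⁻¹) * y
    calc y * (g⁻¹ * s * g⁻¹⁻¹) = g⁻¹ * ((g * y * g⁻¹) * s) * g := by group
      _ = g⁻¹ * (s * (g * y * g⁻¹)) * g := by rw [hc]
      _ = (g⁻¹ * s * g⁻¹⁻¹) * y := by group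
  have hZne : ¬ omegaCenterOf (S : Subgroup G) ≤ Z1 := by
    intro hle
    apply hKM
    intro k hk
    apply hMJ
    apply ThJ.normalizer_le (S : Subgroup G)
    apply hZ S
    rw [Subgroup.mem_centralizer_iff]
    intro z hz
    exact (Subgroup.mem_centralizer_iff.mp (hZ1cen z (hle hz)) k
      (Subgroup.mem_sup_left hk)).symm
  obtain ⟨x, hxS, hxNT, hxT⟩ := Cfsg.Agent.H39.Jz.exists_normalizer_not_mem hS2 hTS hne
  have hxL : x ∉ L := by
    intro hxL
    apply hxT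
    have hR2 : IsPGroup 2 ↥(T ⊔ Subgroup.zpowers x) :=
      hS2.to_le (sup_le hTS (Subgroup.zpowers_le.mpr hxS))
    have hRL : T ⊔ Subgroup.zpowers x ≤ L := sup_le hsyl.1 (Subgroup.zpowers_le.mpr hxL)
    have hEq : T = T ⊔ Subgroup.zpowers x :=
      Subgroup.eq_of_le_of_card_ge le_sup_left (hcard _ hRL hR2)
    rw [hEq]
    exact Subgroup.mem_sup_right (Subgroup.mem_zpowers x)
  have hNT0 : Subgroup.normalizer (T : Set G) ≤ Subgroup.normalizer (Z0 : Set G) := by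
    rw [hZ0, hJ]
    exact (ThJ.normalizer_le T).trans (normalizer_le_omega _)
  have hxN := hNT0 hxNT
  have hconjS : ∀ s ∈ (S : Subgroup G), ∀ z ∈ omegaCenterOf (S : Subgroup G),
      s * z * s⁻¹ = z := by
    intro s hs z hz
    have h := Subgroup.mem_centralizer_iff.mp (Subgroup.mem_inf.mp (hZle hz)).2 s hs
    rw [h]; group
  have hTN : T ≤ Subgroup.normalizer (Z0 : Set G) := Subgroup.le_normalizer.trans hNT0
  have hOT : pCoreOf 2 L ≤ T := J48.pCoreOf_le_of_sylowIn hsyl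
  have hZT : omegaCenterOf (S : Subgroup G) ≤ T := by
    intro a ha
    have ha' := hZle ha
    have h1 : a ∈ Subgroup.centralizer (pCoreOf 2 L : Set G) :=
      Subgroup.centralizer_le (SetLike.coe_subset_coe.mpr (hOT.trans hTS))
        (Subgroup.mem_inf.mp ha').2
    exact hOT (J48.centralizer_pCoreOf_le hL hLmax.1 h1)
  have hmemZ0 : ∀ a : G, a ∈ T → (∀ t ∈ T, t * a = a * t) → a * a = 1 → a ∈ Z0 := by
    intro a haT hac ha2
    have ha2' : a ^ 2 = 1 := by rw [pow_two]; exact ha2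
    have haJ : a ∈ J := by rw [hJ]; exact Cfsg.Agent.H4.Jz.z2_mem_J T a haT ha2' hac
    rw [hZ0]
    unfold omegaCenterOf omegaOne
    apply Subgroup.subset_closure
    refine ⟨Subgroup.mem_inf.mpr ⟨haJ, ?_⟩, ha2'⟩
    rw [Subgroup.mem_centralizer_iff]
    intro j hj
    exact hac j (hJT hj)
  have hZZ0 : omegaCenterOf (S : Subgroup G) ≤ Z0 := by
    intro a ha
    apply hmemZ0 a (hZT ha)
    · intro t ht
      exact Subgroup.mem_centralizer_iff.mp (Subgroup.mem_inf.mp (hZle ha)).2 t (hTS ht)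
    · exact omega_sq _ a ha
  have hTZ0 : omegaCenterOf T ≤ Z0 := by
    intro a ha
    have key : a ∈ T ⊓ Subgroup.centralizer (T : Set G) :=
      Cfsg.Agent.H4.Jz.z2_omega_le T ha
    apply hmemZ0 a (Subgroup.mem_inf.mp key).1
    · intro t ht
      exact Subgroup.mem_centralizer_iff.mp (Subgroup.mem_inf.mp key).2 t ht
    · exact omega_sq _ a ha
  rcases lt_core (omegaCenterOf (S : Subgroup G)) Z0 Z1 T L x w hZZ0 hsq hcomm hZ1le hw0 hidx
    hU hY hNoZ hZne hxL hxN (fun z hz => hconjS x hxS z hz) hsyl.1 hTN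
    (fun t ht z hz => hconjS t (hTS ht) z hz) with ⟨h1, h2⟩ | ⟨h1, h2, h3⟩
  · left; exact ⟨h1, h2⟩
  · right; right
    refine ⟨?_, h2, h3⟩
    apply le_antisymm hTZ0
    intro a ha
    unfold omegaCenterOf omegaOne
    apply Subgroup.subset_closure
    have haT : a ∈ T := hJT (Subgroup.mem_inf.mp (hZ0le ha)).1
    refine ⟨Subgroup.mem_inf.mpr ⟨haT, ?_⟩, by rw [pow_two]; exact hsq a ha⟩
    rw [Subgroup.mem_centralizer_iff]
    intro t ht
    have h := h1 t ht a ha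
    calc t * a = (t * a * t⁻¹) * t := by group
      _ = a * t := by rw [h]

example (h46 : Cfsg.Agent.H4.Jz.St46.{u}) : Cfsg.Agent.H64.Jz.StLt.{u} := lt_of h46

end Cfsg.Agent.H7.JzLt

#print axioms Cfsg.Agent.H7.JzLt.lt_of
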