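import Mathlib

set_option autoImplicit false

namespace Cfsg.Agent.H7

open Matrix

open scoped MatrixGroups LinearAlgebra.Projectivization

section ProjLine

variable {F : Type*} [Field F]

/-- Equality of points of the projective line via the `2 × 2` determinant. -/
theorem mk_eq_mk_iff_cross (v w : Fin 2 → F) (hv : v ≠ 0) (hw : w ≠ 0) :
    Projectivization.mk F v hv = Projectivization.mk F w hw ↔ v 0 * w 1 - v 1 * w 0 = 0 := by
  rw [Projectivization.mk_eq_mk_iff']
  constructor
  · rintro ⟨a, rfl⟩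
    simp only [Pi.smul_apply, smul_eq_mul]
    ring
  · intro h
    by_cases hw0 : w 0 = 0
    · have hw1 : w 1 ≠ 0 := by
        intro hw1
        apply hw
        funext i
        fin_cases i
        · exact hw0
        · exact hw1
      rw [hw0, mul_zero, sub_zero] at h
      have hv0 : v 0 = 0 := (mul_eq_zero.mp h).resolve_right hw1
      refine ⟨v 1 / w 1, ?_⟩
      funext i
      fin_cases i
      · simp [hw0, hv0]
      · simp [hw1]
    · refine ⟨v 0 / w 0, ?_⟩
      funext i
      fin_cases i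
      · simp [hw0]
      · simp only [Fin.mk_one, Pi.smul_apply, smul_eq_mul]
        field_simp
        linear_combination h

theorem vec_one_zero_ne : (![1, 0] : Fin 2 → F) ≠ 0 := by
  intro h; have := congrFun h 0; simp at this

theorem vec_zero_one_ne : (![0, 1] : Fin 2 → F) ≠ 0 := by
  intro h; have := congrFun h 1; simp at this

theorem vec_one_one_ne : (![1, 1] : Fin 2 → F) ≠ 0 := by
  intro h; have := congrFun h 0; simp at this

/-- The three standard points of the projective line. -/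
noncomputable def ptInf (F : Type*) [Field F] : ℙ F (Fin 2 → F) :=
  Projectivization.mk F ![1, 0] vec_one_zero_ne

noncomputable def ptZero (F : Type*) [Field F] : ℙ F (Fin 2 → F) :=
  Projectivization.mk F ![0, 1] vec_zero_one_ne

noncomputable def ptOne (F : Type*) [Field F] : ℙ F (Fin 2 → F) :=
  Projectivization.mk F ![1, 1] vec_one_one_ne

theorem gl_smul_vec (g : GL (Fin 2) F) (v : Fin 2 → F) :
    g • v = ![g.1 0 0 * v 0 + g.1 0 1 * v 1, g.1 1 0 * v 0 + g.1 1 1 * v 1] := by
  show g.1 *ᵥ v = _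
  funext i
  fin_cases i <;> simp [Matrix.mulVec, dotProduct, Fin.sum_univ_two]

/-- `PGL_2` maps the standard triple to any triple of distinct points. -/
theorem pgl2_exists_of_distinct (a b c : ℙ F (Fin 2 → F)) (hab : a ≠ b) (hac : a ≠ c)
    (hbc : b ≠ c) :
    ∃ g : PGL(Fin 2, F), g • ptInf F = a ∧ g • ptZero F = b ∧ g • ptOne F = c := by
  induction a using Projectivization.ind with | _ va hva => ?_
  induction b using Projectivization.ind with | _ vb hvb => ?_
  induction c using Projectivization.ind with | _ vc hvc => ?_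
  have hab' : va 0 * vb 1 - va 1 * vb 0 ≠ 0 := fun h => hab ((mk_eq_mk_iff_cross _ _ hva hvb).2 h)
  have hac' : va 0 * vc 1 - va 1 * vc 0 ≠ 0 := fun h => hac ((mk_eq_mk_iff_cross _ _ hva hvc).2 h)
  have hbc' : vb 0 * vc 1 - vb 1 * vc 0 ≠ 0 := fun h => hbc ((mk_eq_mk_iff_cross _ _ hvb hvc).2 h)
  set al : F := vc 0 * vb 1 - vc 1 * vb 0 with hal
  set be : F := va 0 * vc 1 - va 1 * vc 0 with hbe
  have hal0 : al ≠ 0 := by
    intro h; apply hbc'; rw [hal] at h; linear_combination -h
  have hdet : (!![al * va 0, be * vb 0; al * va 1, be * vb 1] : Matrix (Fin 2) (Fin 2) F).det ≠ 0 := by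
    rw [Matrix.det_fin_two_of]
    have : al * va 0 * (be * vb 1) - be * vb 0 * (al * va 1) =
        al * be * (va 0 * vb 1 - va 1 * vb 0) := by ring
    rw [this]
    exact mul_ne_zero (mul_ne_zero hal0 hac') hab'
  refine ⟨Matrix.ProjGenLinGroup.mk (Matrix.GeneralLinearGroup.mkOfDetNeZero _ hdet), ?_, ?_, ?_⟩
  · rw [ptInf, Projectivization.PGL.mk_smul_mk, mk_eq_mk_iff_cross, gl_smul_vec]
    simp [Matrix.GeneralLinearGroup.mkOfDetNeZero]
    ring
  · rw [ptZero, Projectivization.PGL.mk_smul_mk, mk_eq_mk_iff_cross, gl_smul_vec]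
    simp [Matrix.GeneralLinearGroup.mkOfDetNeZero]
    ring
  · rw [ptOne, Projectivization.PGL.mk_smul_mk, mk_eq_mk_iff_cross, gl_smul_vec]
    simp [Matrix.GeneralLinearGroup.mkOfDetNeZero]
    rw [hal, hbe]
    ring

/-- An element of `PGL_2` fixing the three standard points is trivial. -/
theorem pgl2_eq_one_of_fix_std (g : PGL(Fin 2, F)) (h0 : g • ptInf F = ptInf F)
    (h1 : g • ptZero F = ptZero F) (h2 : g • ptOne F = ptOne F) : g = 1 := by
  induction g using Matrix.ProjGenLinGroup.induction_on with | mk M => ?_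
  rw [ptInf, Projectivization.PGL.mk_smul_mk, mk_eq_mk_iff_cross, gl_smul_vec] at h0
  rw [ptZero, Projectivization.PGL.mk_smul_mk, mk_eq_mk_iff_cross, gl_smul_vec] at h1
  rw [ptOne, Projectivization.PGL.mk_smul_mk, mk_eq_mk_iff_cross, gl_smul_vec] at h2
  simp at h0 h1 h2
  have hM00 : M.1 0 0 ≠ 0 := by
    intro h
    have hdet := Matrix.GeneralLinearGroup.det_ne_zero M
    rw [Matrix.det_fin_two, h, h0] at hdet
    simp at hdet
  have hM : M = Matrix.GeneralLinearGroup.scalar (Fin 2) (Units.mk0 _ hM00) := by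
    ext i j
    fin_cases i <;> fin_cases j
    · simp
    · simpa using h1
    · simpa using h0
    · simp
      linear_combination -h2 + h1 - h0
  rw [hM]
  exact Matrix.ProjGenLinGroup.mk_scalar _

/-- An embedding `Fin 3 ↪ α` from three distinct points. -/
def emb3 {α : Type*} (a b c : α) (hab : a ≠ b) (hac : a ≠ c) (hbc : b ≠ c) : Fin 3 ↪ α where
  toFun := ![a, b, c]
  inj' := by
    intro i j h
    fin_cases i <;> fin_cases j <;> simp_all

theorem emb3_zero {α : Type*} (a b c : α) (hab : a ≠ b) (hac : a ≠ c) (hbc : b ≠ c) :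
    emb3 a b c hab hac hbc 0 = a := rfl

theorem emb3_one {α : Type*} (a b c : α) (hab : a ≠ b) (hac : a ≠ c) (hbc : b ≠ c) :
    emb3 a b c hab hac hbc 1 = b := rfl

theorem emb3_two {α : Type*} (a b c : α) (hab : a ≠ b) (hac : a ≠ c) (hbc : b ≠ c) :
    emb3 a b c hab hac hbc 2 = c := rfl

theorem pgl2_three_transitive :
    MulAction.IsMultiplyPretransitive (PGL(Fin 2, F)) (ℙ F (Fin 2 → F)) 3 := by
  rw [MulAction.isMultiplyPretransitive_iff]
  intro x y
  obtain ⟨gx, hx0, hx1, hx2⟩ := pgl2_exists_of_distinct (x 0) (x 1) (x 2)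
    (x.injective.ne (by decide)) (x.injective.ne (by decide)) (x.injective.ne (by decide))
  obtain ⟨gy, hy0, hy1, hy2⟩ := pgl2_exists_of_distinct (y 0) (y 1) (y 2)
    (y.injective.ne (by decide)) (y.injective.ne (by decide)) (y.injective.ne (by decide))
  refine ⟨gy * gx⁻¹, ?_⟩
  ext i
  rw [Function.Embedding.smul_apply, mul_smul]
  fin_cases i
  · show gy • gx⁻¹ • x 0 = y 0
    rw [← hx0, inv_smul_smul, hy0]
  · show gy • gx⁻¹ • x 1 = y 1
    rw [← hx1, inv_smul_smul, hy1]
  · show gy • gx⁻¹ • x 2 = y 2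
    rw [← hx2, inv_smul_smul, hy2]

theorem pgl2_sharp (g : PGL(Fin 2, F)) (a b c : ℙ F (Fin 2 → F)) (hab : a ≠ b) (hac : a ≠ c)
    (hbc : b ≠ c) (ha : g • a = a) (hb : g • b = b) (hc : g • c = c) : g = 1 := by
  obtain ⟨h, h0, h1, h2⟩ := pgl2_exists_of_distinct a b c hab hac hbc
  have key : h⁻¹ * g * h = 1 := by
    apply pgl2_eq_one_of_fix_std
    · rw [mul_smul, mul_smul, h0, ha, ← h0, inv_smul_smul]
    · rw [mul_smul, mul_smul, h1, hb, ← h1, inv_smul_smul]
    · rw [mul_smul, mul_smul, h2, hc, ← h2, inv_smul_smul]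
  have : g = h * (h⁻¹ * g * h) * h⁻¹ := by group
  rw [this, key]; group

theorem ptInf_ne_ptZero : ptInf F ≠ ptZero F := by
  rw [ptInf, ptZero, Ne, mk_eq_mk_iff_cross]; simp

theorem ptInf_ne_ptOne : ptInf F ≠ ptOne F := by
  rw [ptInf, ptOne, Ne, mk_eq_mk_iff_cross]; simp

theorem ptZero_ne_ptOne : ptZero F ≠ ptOne F := by
  rw [ptZero, ptOne, Ne, mk_eq_mk_iff_cross]; simp

theorem sl_smul_vec (g : SL(2, F)) (v : Fin 2 → F) :
    g • v = ![g.1 0 0 * v 0 + g.1 0 1 * v 1, g.1 1 0 * v 0 + g.1 1 1 * v 1] := by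
  show g.1 *ᵥ v = _
  funext i
  fin_cases i <;> simp [Matrix.mulVec, dotProduct, Fin.sum_univ_two]

/-- If `SL_2(F)` is `3`-transitive on the projective line then every nonzero element is a
square. -/
theorem isSquare_of_sl2_three_transitive
    (h : MulAction.IsMultiplyPretransitive SL(2, F) (ℙ F (Fin 2 → F)) 3) (d : F) (hd : d ≠ 0) :
    IsSquare d := by
  have hvd : (![d, 1] : Fin 2 → F) ≠ 0 := by
    intro h; have := congrFun h 1; simp at this
  have hiD : ptInf F ≠ Projectivization.mk F ![d, 1] hvd := by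
    rw [ptInf, Ne, mk_eq_mk_iff_cross]; simp
  have hzD : ptZero F ≠ Projectivization.mk F ![d, 1] hvd := by
    rw [ptZero, Ne, mk_eq_mk_iff_cross]; simpa using hd
  obtain ⟨g, hg⟩ := (MulAction.isMultiplyPretransitive_iff.mp h)
    (emb3 (ptInf F) (ptZero F) (ptOne F) ptInf_ne_ptZero ptInf_ne_ptOne ptZero_ne_ptOne)
    (emb3 (ptInf F) (ptZero F) (Projectivization.mk F ![d, 1] hvd) ptInf_ne_ptZero hiD hzD)
  have h0 : g • ptInf F = ptInf F := by
    have := congrArg (fun e : Fin 3 ↪ ℙ F (Fin 2 → F) => e 0) hg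
    simp only [Function.Embedding.smul_apply, emb3_zero] at this
    exact this
  have h1 : g • ptZero F = ptZero F := by
    have := congrArg (fun e : Fin 3 ↪ ℙ F (Fin 2 → F) => e 1) hg
    simp only [Function.Embedding.smul_apply, emb3_one] at this
    exact this
  have h2 : g • ptOne F = Projectivization.mk F ![d, 1] hvd := by
    have := congrArg (fun e : Fin 3 ↪ ℙ F (Fin 2 → F) => e 2) hg
    simp only [Function.Embedding.smul_apply, emb3_two] at this
    exact this
  rw [ptInf, Projectivization.smul_mk, mk_eq_mk_iff_cross, sl_smul_vec] at h0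
  rw [ptZero, Projectivization.smul_mk, mk_eq_mk_iff_cross, sl_smul_vec] at h1
  rw [ptOne, Projectivization.smul_mk, mk_eq_mk_iff_cross, sl_smul_vec] at h2
  simp at h0 h1 h2
  have hdet : g.1 0 0 * g.1 1 1 - g.1 0 1 * g.1 1 0 = 1 := by
    have := g.2
    rwa [Matrix.det_fin_two] at this
  rw [h0, h1] at hdet
  rw [h0, h1] at h2
  have h3 : g.1 1 1 * g.1 1 1 * d = 1 := by linear_combination hdet - g.1 1 1 * h2
  have hg11 : g.1 1 1 ≠ 0 := by
    intro h; rw [h] at h3; simp at h3
  refine ⟨(g.1 1 1)⁻¹, ?_⟩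
  field_simp
  linear_combination h3

/-- If every element of `F` is a square then `SL_2(F)` is `3`-transitive on the projective
line. -/
theorem sl2_three_transitive_of_isSquare (hsq : ∀ d : F, IsSquare d) :
    MulAction.IsMultiplyPretransitive SL(2, F) (ℙ F (Fin 2 → F)) 3 := by
  rw [MulAction.isMultiplyPretransitive_iff]
  intro x y
  obtain ⟨g, hg⟩ := (MulAction.isMultiplyPretransitive_iff.mp pgl2_three_transitive) x y
  induction g using Matrix.ProjGenLinGroup.induction_on with | mk M => ?_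
  obtain ⟨e, he⟩ := hsq M.1.det
  have hdet := Matrix.GeneralLinearGroup.det_ne_zero M
  have he0 : e ≠ 0 := by
    intro h; rw [h, mul_zero] at he; exact hdet he
  let M' : SL(2, F) := ⟨e⁻¹ • M.1, by
    rw [Matrix.det_smul, Fintype.card_fin, he]
    field_simp⟩
  have key : ∀ p : ℙ F (Fin 2 → F), M' • p = Matrix.ProjGenLinGroup.mk M • p := by
    intro p
    induction p using Projectivization.ind with | _ v hv => ?_
    rw [Projectivization.smul_mk, Projectivization.PGL.mk_smul_mk, mk_eq_mk_iff_cross]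
    have e1 : M' • v = e⁻¹ • (M.1 *ᵥ v) := by
      show (e⁻¹ • M.1) *ᵥ v = _
      rw [Matrix.smul_mulVec]
    have e2 : M • v = M.1 *ᵥ v := rfl
    rw [e1, e2]
    simp only [Pi.smul_apply, smul_eq_mul]
    ring
  refine ⟨M', ?_⟩
  ext i
  rw [Function.Embedding.smul_apply, key, ← Function.Embedding.smul_apply, hg]

end ProjLine

end Cfsg.Agent.H7
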